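import Mathlib
import Cfsg.Prelude.Def_CaseTheorems

/-!
Components of the point stabilizers of a doubly transitive group: definitions and the statements
of the steps.  The paper proof is in `stubs/notes/h45_s3354.md`.
-/

set_option autoImplicit false

namespace Cfsg.Agent.H45.On

universe u v

section Basic

variable {G : Type u} [Group G]

/-- The conjugate `g M g⁻¹`. -/
abbrev cj (g : G) (M : Subgroup G) : Subgroup G := M.map (MulAut.conj g).toMonoidHom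

theorem mem_cj {g a : G} {M : Subgroup G} : a ∈ cj g M ↔ g⁻¹ * a * g ∈ M := by
  rw [Subgroup.mem_map_equiv]; simp

theorem cj_mem {g a : G} {M : Subgroup G} (h : a ∈ M) : g * a * g⁻¹ ∈ cj g M := by
  rw [mem_cj]; simpa [mul_assoc] using h

theorem cj_mul (g h : G) (M : Subgroup G) : cj (g * h) M = cj g (cj h M) := by
  ext a; simp only [mem_cj, mul_inv_rev, mul_assoc]

theorem cj_one (M : Subgroup G) : cj 1 M = M := by
  ext a; simp [mem_cj]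

theorem cj_inv_cj (g : G) (M : Subgroup G) : cj g⁻¹ (cj g M) = M := by
  rw [← cj_mul, inv_mul_cancel, cj_one]

theorem cj_cj_inv (g : G) (M : Subgroup G) : cj g (cj g⁻¹ M) = M := by
  rw [← cj_mul, mul_inv_cancel, cj_one]

theorem cj_inj {g : G} {M M' : Subgroup G} (h : cj g M = cj g M') : M = M' := by
  rw [← cj_inv_cj g M, h, cj_inv_cj]

theorem cj_inf (g : G) (M M' : Subgroup G) : cj g (M ⊓ M') = cj g M ⊓ cj g M' := by
  ext a; simp only [mem_cj, Subgroup.mem_inf]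

theorem cj_le {g : G} {M M' : Subgroup G} : cj g M ≤ cj g M' ↔ M ≤ M' :=
  Subgroup.map_le_map_iff_of_injective (MulAut.conj g).injective

theorem card_cj (g : G) (M : Subgroup G) : Nat.card (cj g M) = Nat.card M :=
  Subgroup.card_map_of_injective (MulAut.conj g).injective

theorem cj_self {g : G} {M : Subgroup G} (h : g ∈ M) : cj g M = M := by
  ext a; rw [mem_cj]
  exact ⟨fun h' => by simpa [mul_assoc] using M.mul_mem (M.mul_mem h h') (M.inv_mem h),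
    fun h' => M.mul_mem (M.mul_mem (M.inv_mem h) h') h⟩

theorem cj_of_comm {g : G} {M : Subgroup G} (h : ∀ m ∈ M, g * m = m * g) : cj g M = M := by
  ext a; rw [mem_cj]
  constructor
  · intro h'
    have := h _ h'
    have e : a = g⁻¹ * a * g := by
      rw [← mul_assoc, ← mul_assoc, mul_inv_cancel, one_mul] at this
      exact mul_right_cancel this
    rwa [e]
  · intro h'
    rwa [mul_assoc, ← h a h', inv_mul_cancel_left]

/-- `t` is an involution. -/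
def Inv (t : G) : Prop := t * t = 1 ∧ t ≠ 1
/-- `M` and `M'` commute elementwise. -/
def Cm (M M' : Subgroup G) : Prop := ∀ a ∈ M, ∀ b ∈ M', a * b = b * a
/-- `u` acts on `M` as the element `c` of `M`. -/
def Pr (M : Subgroup G) (u c : G) : Prop := c ∈ M ∧ ∀ m ∈ M, u * m * u⁻¹ = c * m * c⁻¹
/-- `L` contains two distinct commuting involutions. -/
def Four (L : Subgroup G) : Prop := ∃ a ∈ L, ∃ b ∈ L, Inv a ∧ Inv b ∧ a ≠ b ∧ a * b = b * a
/-- The 2-subgroups of `L` are abelian. -/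
def AbS (L : Subgroup G) : Prop := ∀ P : Subgroup G, P ≤ L → IsPGroup 2 P → Cm P P
/-- `Q` is a Sylow 2-subgroup of `L`. -/
def Sy (Q L : Subgroup G) : Prop := Q ≤ L ∧ IsPGroup 2 Q ∧ Odd (Q.relIndex L)
/-- The conjugates of `M` meet trivially. -/
def TIc (M : Subgroup G) : Prop := ∀ g, cj g M ≠ M → M ⊓ cj g M = ⊥

variable {Ω : Type v} [MulAction G Ω]

/-- `M` fixes `y`. -/
def Fx (M : Subgroup G) (y : Ω) : Prop := ∀ m ∈ M, m • y = y
/-- The stabilizer of `y` in `M`. -/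
abbrev St (M : Subgroup G) (y : Ω) : Subgroup G := M ⊓ MulAction.stabilizer G y

end Basic

/-- A doubly transitive group with an invariant family of commuting simple groups at each point. -/
structure S0 (G : Type u) (Ω : Type v) [Group G] [MulAction G Ω] where
  C : Ω → Subgroup G → Prop
  tr2 : ∀ x y x' y' : Ω, x ≠ y → x' ≠ y' → ∃ g : G, g • x = x' ∧ g • y = y'
  faith : ∀ g : G, (∀ x : Ω, g • x = x) → g = 1
  nt : ∃ x y : Ω, x ≠ y
  conj : ∀ (g : G) {x M}, C x M → C (g • x) (cj g M)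
  fx : ∀ {x M}, C x M → Fx M x
  simple : ∀ {x M}, C x M → IsSimpleGroup M
  nab : ∀ {x M}, C x M → ¬ Cm M M
  comm : ∀ {x M M'}, C x M → C x M' → M ≠ M' → Cm M M'
  one : ∀ x, ∃ M, C x M

namespace S0

variable {G : Type u} {Ω : Type v} [Group G] [MulAction G Ω] (S : S0 G Ω)

/-- Two components at each point. -/
def Two : Prop := ∀ x, ∃ M M', S.C x M ∧ S.C x M' ∧ M ≠ M'
/-- A component has one base point. -/
def Uq : Prop := ∀ x y M, S.C x M → S.C y M → x = y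
/-- A component fixes only its base point. -/
def D0 : Prop := ∀ x y M, S.C x M → Fx M y → y = x
/-- Two components at `x` are free on `y`. -/
def D1 : Prop := ∀ x y : Ω, x ≠ y → ∃ M M', S.C x M ∧ S.C x M' ∧ M ≠ M' ∧ St M y = ⊥ ∧ St M' y = ⊥
/-- A component that fixes `y` normalizes the components at `y`. -/
def Nm : Prop := ∀ x y M M', S.C x M → Fx M y → S.C y M' → ∀ a ∈ M, cj a M' = M'
/-- Besides any given group, some component at `x` moves `y`. -/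
def H1 : Prop := ∀ (x y : Ω) (M : Subgroup G), x ≠ y → ∃ T, S.C x T ∧ T ≠ M ∧ ¬ Fx T y
/-- Distinct components meet trivially. -/
def TI : Prop := ∀ x y M M', S.C x M → S.C y M' → M ≠ M' → M ⊓ M' = ⊥
/-- Involutions of components fix only the base point. -/
def Od : Prop := ∀ x y M t, S.C x M → t ∈ M → Inv t → t • y = y → y = x
/-- Some involution of a component at `x` fixes `y`. -/
def Ev : Prop := ∀ x y : Ω, x ≠ y → ∃ M t, S.C x M ∧ t ∈ M ∧ Inv t ∧ t • y = y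
/-- The product of the components at `x`. -/
def N (x : Ω) : Subgroup G := ⨆ M : {M : Subgroup G // S.C x M}, M.1

/-- Facts about the product of the components. -/
structure PK : Prop where
  le : ∀ {x M}, S.C x M → M ≤ S.N x
  fx : ∀ x, Fx (S.N x) x
  cjN : ∀ (g : G) x, cj g (S.N x) = S.N (g • x)
  ex : ∀ {x M u}, S.C x M → u ∈ S.N x → ∃ c, Pr M u c
  uq : ∀ {x M u c c'}, S.C x M → Pr M u c → Pr M u c' → c = c'
  inj : ∀ {x u}, u ∈ S.N x → (∀ M, S.C x M → ∀ m ∈ M, u * m = m * u) → u = 1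
  disj : ∀ {x M M'}, S.C x M → S.C x M' → M ≠ M' → M ⊓ M' = ⊥
  nrm : ∀ {x M u}, S.C x M → u ∈ S.N x → cj u M = M

/-- The trivial intersection case. -/
structure Te : Prop where
  two : S.Two
  uq : S.Uq
  ti : S.TI
  d0 : S.D0
  ev : S.Ev

theorem Te.cn {S : S0 G Ω} (T : S.Te) {x : Ω} {M : Subgroup G} {a c : G} (hM : S.C x M)
    (ha : a ∈ M) (h1 : a ≠ 1) (hc : c * a = a * c) : cj c M = M ∧ c • x = x := by
  have e : cj c M = M := by
    by_contra h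
    have := T.ti _ _ _ _ (S.conj c hM) hM h
    have ha' : a ∈ cj c M ⊓ M := Subgroup.mem_inf.2
      ⟨by rw [mem_cj, mul_assoc, ← hc, inv_mul_cancel_left]; exact ha, ha⟩
    rw [this] at ha'
    exact h1 ha'
  exact ⟨e, T.uq _ _ M (e ▸ S.conj c hM) hM⟩

/-- Some component at `x` is free on `y`. -/
def J0 : Prop := ∀ x y : Ω, x ≠ y → ∃ M, S.C x M ∧ St M y = ⊥
/-- No four-groups in the stabilizers. -/
def R1 : Prop := ∀ x y M, S.C x M → x ≠ y → ¬ Four (St M y)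
/-- Involutions of components at `y` that fix `x` normalize the components at `x`. -/
def E1 : Prop := ∀ x y M M' b, S.C x M → S.C y M' → b ∈ M' → Inv b → b • x = x → cj b M = M
/-- Every component at `x` has an involution that fixes `y`. -/
def EV : Prop := ∀ (x y : Ω) M, S.C x M → ∃ t ∈ M, Inv t ∧ t • y = y
/-- Elements of components at `y` that fix `x` normalize the components at `x`. -/
def E2 : Prop := ∀ x y M M' b, S.C x M → S.C y M' → b ∈ M' → b • x = x → cj b M = M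
/-- The stabilizers commute. -/
def E3 : Prop := ∀ x y M M', S.C x M → S.C y M' → x ≠ y → Cm (St M y) (St M' x)
/-- The intersection of two conjugate stabilizers is the centralizer of an involution. -/
def SS : Prop := ∀ x y M s, S.C x M → x ≠ y → s ∈ M → s • y ≠ y → ∃ e ∈ St M y, Inv e ∧
  ∀ h ∈ St M y, h * e = e * h ↔ h • s • y = s • y
/-- The stabilizers have abelian Sylow 2-subgroups. -/
def AB : Prop := ∀ x y M, S.C x M → x ≠ y → AbS (St M y)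
/-- The stabilizers have even index. -/
def IX : Prop := ∀ x y M, S.C x M → x ≠ y → Even ((St M y).relIndex M)

/-- A class of components with nontrivial intersections. -/
structure Li where
  A : Subgroup G
  ν : ℕ
  uq : S.Uq
  h1 : S.H1
  dd : S.D0 ∨ S.D1
  hA : ∃ x, S.C x A
  one_lt : 1 < ν
  att : ∃ g, cj g A ≠ A ∧ Nat.card ↥(A ⊓ cj g A) = ν
  max : ∀ g, cj g A ≠ A → Nat.card ↥(A ⊓ cj g A) ≤ ν

namespace Li

variable {S} (L : S.Li)

/-- Components in the class. -/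
def Cp (z : Ω) (M : Subgroup G) : Prop := S.C z M ∧ ∃ g, M = cj g L.A
/-- Lines: intersections of maximal order. -/
def Ln (U : Subgroup G) : Prop :=
  ∃ z z' M M', z ≠ z' ∧ L.Cp z M ∧ L.Cp z' M' ∧ U = M ⊓ M' ∧ Nat.card U = L.ν
/-- The point `z` is on `U`. -/
def On (U : Subgroup G) (z : Ω) : Prop := ∃ M, L.Cp z M ∧ U ≤ M
/-- `M` contains a line through `w`. -/
def Lk (M : Subgroup G) (w : Ω) : Prop := ∃ U, L.Ln U ∧ U ≤ M ∧ L.On U w
/-- The block through two points. -/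
def Bl (z w : Ω) : Set Ω := {v | ∀ U, L.Ln U → L.On U z → L.On U w → L.On U v}
/-- The number of points on `U`. -/
noncomputable def be (U : Subgroup G) : ℕ := {z | L.On U z}.ncard
/-- The number of components of the class at `z`. -/
noncomputable def kk (z : Ω) : ℕ := {M | L.Cp z M}.ncard
/-- The number of components at `z` linked with `w`. -/
noncomputable def mu (z w : Ω) : ℕ := {M | L.Cp z M ∧ L.Lk M w}.ncard
/-- The points of `U` where `U'` lies in another component. -/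
def Ap (U U' : Subgroup G) : Set Ω := {z | L.On U z ∧ ∃ M', L.Cp z M' ∧ U' ≤ M' ∧ ¬ U ≤ M'}

/-- Basic facts about lines. -/
structure LK : Prop where
  ne_bot : ∀ {U}, L.Ln U → U ≠ ⊥
  eq_inf : ∀ {U z z' M M'}, L.Ln U → L.Cp z M → L.Cp z' M' → U ≤ M → U ≤ M' → z ≠ z' → U = M ⊓ M'
  eq_at : ∀ {U z M M'}, U ≠ ⊥ → S.C z M → S.C z M' → U ≤ M → U ≤ M' → M = M'
  cp : ∀ (g : G) {z M}, L.Cp z M → L.Cp (g • z) (cj g M)
  ln : ∀ (g : G) {U}, L.Ln U → L.Ln (cj g U)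
  on : ∀ (g : G) {U z}, L.On U z → L.On (cj g U) (g • z)
  lk : ∀ (g : G) {M w}, L.Lk M w → L.Lk (cj g M) (g • w)
  bl : ∀ (g : G) {z w v}, v ∈ L.Bl z w → g • v ∈ L.Bl (g • z) (g • w)
  tr : ∀ {z M M'}, L.Cp z M → L.Cp z M' → ∃ g : G, g • z = z ∧ M' = cj g M
  join : ∀ {z w}, z ≠ w → ∃ U, L.Ln U ∧ L.On U z ∧ L.On U w
  fx : ∀ {U z}, L.On U z → Fx U z
  five : ∀ {U z M}, L.Ln U → L.Cp z M → U ≤ M → 5 ≤ {U' | ∃ s ∈ M, U' = cj s U}.ncard
  kk_eq : ∀ z z', L.kk z = L.kk z'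
  mu_eq : ∀ {z w z' w'}, z ≠ w → z' ≠ w' → L.mu z w = L.mu z' w'
  mu_pos : ∀ {z w}, z ≠ w → 1 ≤ L.mu z w
  mu_le : ∀ z w, L.mu z w ≤ L.kk z

/-- The blocks form a linear space. -/
def LS : Prop := ∀ z w v v', z ≠ w → v ≠ v' → v ∈ L.Bl z w → v' ∈ L.Bl z w → L.Bl v v' = L.Bl z w
/-- Degrees are at most two. -/
def DG : Prop := ∀ z w W, z ≠ w → L.Cp w W → {M | L.Cp z M ∧ L.Ln (M ⊓ W)}.ncard ≤ 2

end Li

end S0

/-- Statements about all configurations. -/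
def A0 (P : ∀ {G : Type u} {Ω : Type v} [Group G] [Finite G] [MulAction G Ω] [Finite Ω]
    (_ : S0 G Ω), Prop) : Prop :=
  ∀ {G : Type u} {Ω : Type v} [Group G] [Finite G] [MulAction G Ω] [Finite Ω] (S : S0 G Ω), P S

/-- Statements about all configurations with lines. -/
def AL (P : ∀ {G : Type u} {Ω : Type v} [Group G] [Finite G] [MulAction G Ω] [Finite Ω]
    {S : S0 G Ω} (_ : S.Li), Prop) : Prop :=
  ∀ {G : Type u} {Ω : Type v} [Group G] [Finite G] [MulAction G Ω] [Finite Ω] {S : S0 G Ω}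
    (L : S.Li), P L

/-! ### General lemmas -/

def Idx5Stmt : Prop := ∀ {G : Type u} [Group G] [Finite G] (M : Subgroup G), IsSimpleGroup M →
  ¬ Cm M M → ∀ Y : Subgroup G, ¬ M ≤ Y →
  ∃ s : Fin 5 → G, (∀ i, s i ∈ M) ∧ ∀ i j, (s i)⁻¹ * s j ∈ Y → i = j

def SimStmt : Prop := ∀ {G : Type u} [Group G] [Finite G] (M : Subgroup G), IsSimpleGroup M →
  ¬ Cm M M → Four M ∧ (∀ s ∈ M, Inv s → ∃ t ∈ M, Inv t ∧ t ≠ s ∧ s * t = t * s) ∧
  (∀ Y : Subgroup G, (∀ t ∈ M, Inv t → t ∈ Y) → M ≤ Y) ∧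
  (∀ Y : Subgroup G, (∀ a ∈ M, ∀ b ∈ M, a * b * a⁻¹ * b⁻¹ ∈ Y) → M ≤ Y) ∧
  (∀ Y : Subgroup G, Y ≤ M → (∀ s ∈ M, ∀ h ∈ Y, s * h * s⁻¹ ∈ Y) → Y = ⊥ ∨ Y = M) ∧
  ∀ c ∈ M, (∀ m ∈ M, c * m = m * c) → c = 1

def InvStmt : Prop := ∀ {G : Type u} [Group G] [Finite G] (L : Subgroup G) (t : G), t * t = 1 →
  cj t L = L → (∃ a ∈ L, Inv a) → ∃ a ∈ L, Inv a ∧ t * a = a * t

def DihStmt : Prop := ∀ {G : Type u} [Group G] [Finite G] (a b : G), a * a = 1 → b * b = 1 →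
  (∃ d, d * a * d⁻¹ = b) ∨ ∃ w d, Inv w ∧ w * a = a * w ∧ w * b = b * w ∧
    (w * a = d * a * d⁻¹ ∨ w * b = d * a * d⁻¹)

def ParStmt : Prop := ∀ {G : Type u} {Ω : Type v} [Group G] [MulAction G Ω] [Finite Ω]
  (Y : Subgroup G) (Φ : Set Ω), (∀ c ∈ Y, ∀ z ∈ Φ, c • z ∈ Φ) →
  (∀ z ∈ Φ, ∃ t ∈ Y, t * t = 1 ∧ t • z = z ∧ ∀ z' ∈ Φ, t • z' = z' → z' = z) →
  ∀ z ∈ Φ, ∀ z' ∈ Φ, ∃ c ∈ Y, c • z = z'

def GrowStmt : Prop := ∀ {G : Type u} [Group G] [Finite G] (M Y B Q : Subgroup G),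
  IsPGroup 2 B → B ≤ Y → (∀ b ∈ B, cj b M = M) → Cm B (M ⊓ Y) → Sy Q (M ⊓ Y) →
  Even ((M ⊓ Y).relIndex M) → ∃ g ∈ M, g ∉ Y ∧ cj g (Q ⊔ B) = Q ⊔ B ∧
    ∀ b ∈ B, b⁻¹ * (g * b * g⁻¹) ∈ Q

def SyStmt : Prop := ∀ {G : Type u} [Group G] [Finite G] (L P : Subgroup G), P ≤ L →
  IsPGroup 2 P → (∃ Q, P ≤ Q ∧ Sy Q L) ∧ (∀ Q, Sy Q L → Q ≤ P → P = Q) ∧
  ∀ Q, Sy Q L → ∃ g ∈ L, cj g P ≤ Q

def LsfStmt : Prop := ∀ {Ω : Type v} [Finite Ω] (Bl : Ω → Ω → Set Ω) (γ : ℕ),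
  (∀ z w, z ∈ Bl z w ∧ w ∈ Bl z w) →
  (∀ z w v v', z ≠ w → v ≠ v' → v ∈ Bl z w → v' ∈ Bl z w → Bl v v' = Bl z w) →
  (∀ z w, z ≠ w → (Bl z w).ncard = γ ∧ Bl z w ≠ Set.univ) →
  ∀ g : Equiv.Perm Ω, g ≠ 1 → (∀ z w v, v ∈ Bl z w → g v ∈ Bl (g z) (g w)) →
  ∃ r, Nat.card Ω = 1 + r * (γ - 1) ∧ γ ≤ r ∧ {z | g z = z}.ncard + 3 ≤ r + γ

def NumStmt : Prop := ∀ n r γ β k μ F : ℕ, n = 1 + r * (γ - 1) → γ ≤ r → F + 3 ≤ r + γ → F ≤ n →
  6 ≤ β → 1 ≤ μ → μ ≤ k → (μ < k → 6 ≤ γ) → (2 ≤ μ → μ < k → 26 ≤ β) →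
  (2 ≤ μ → 5 * β * (μ - 1) ≤ k * (5 + min 2 (k - 1) * (β - 1))) →
  β * (k - μ) * (n - 1) ≤ k * (n - F + β * F) → k = 1

/-! ### Components that fix a second point -/

def DcStmt : Prop := A0.{u, v} fun {G Ω} _ _ _ _ _ => ∀ R : Ω → Ω → Ω → Prop,
  (∀ (g : G) z w w', R z w w' → R (g • z) (g • w) (g • w')) → ∀ z₀ w₀ w₁ w₂, z₀ ≠ w₀ → w₁ ≠ w₂ →
  {w' | w' ≠ z₀ ∧ w' ≠ w₀ ∧ R z₀ w₀ w'}.ncard = {z | z ≠ w₁ ∧ z ≠ w₂ ∧ R z w₁ w₂}.ncard
def PkStmt : Prop := A0.{u, v} fun S => S.PK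
def UqStmt : Prop := A0.{u, v} fun S => S.Uq
def ZcStmt : Prop := A0.{u, v} fun S => S.Nm → S.D0
def PermStmt : Prop := A0.{u, v} fun S => ¬ S.Nm → S.D1
def TimStmt : Prop := A0.{u, v} fun S => S.Uq → ∀ x y M M', S.C x M → TIc M → Fx M y →
  S.C y M' → ∀ a ∈ M, cj a M' = M'
def SwapStmt : Prop := A0.{u, v} fun {G Ω} _ _ _ _ S => ∀ (x y : Ω) M (a a' : G), S.C x M →
  a * a = 1 → a' * a' = 1 → a • x = x → a' • x = x → (∀ c, c * a = a * c → c • y = y) →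
  (∀ c, c * a' = a' * c → c • y = y) → cj a M ≠ M → cj a' M ≠ M → cj a M ≠ cj a' M → Fx M y

/-! ### Lines -/

def LkStmt : Prop := AL.{u, v} fun L => L.LK
def LsStmt : Prop := AL.{u, v} fun L => L.LK → L.LS
def DgStmt : Prop := AL.{u, v} fun L => L.LK → L.DG
def IaStmt : Prop := AL.{u, v} fun L => L.LK → ∀ U z w, L.Ln U → z ≠ w → 2 ≤ L.mu z w →
  ∃ U', L.Ln U' ∧ L.be U * (L.mu z w - 1) ≤ L.kk z * (L.Ap U U').ncard
def IbStmt : Prop := AL.{u, v} fun L => L.LK → L.DG → ∀ U U' z, L.Ln U → L.Ln U' →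
  5 * ((L.Ap U U').ncard - 1) ≤ min 2 (L.kk z - 1) * (L.be U - 1)
def OcStmt : Prop := AL.{u, v} fun {_ Ω} _ _ _ _ _ L => L.LK → ∀ z w M, z ≠ w → L.Cp z M →
  L.kk z * {v | v ≠ z ∧ ¬ L.Lk M v}.ncard = (L.kk z - L.mu z w) * (Nat.card Ω - 1)
def IiStmt : Prop := AL.{u, v} fun {_ Ω} _ _ _ _ _ L => L.LK → L.LS → ∀ U z w, L.Ln U → z ≠ w →
  ∀ g ∈ U, L.be U * (L.kk z - L.mu z w) * (Nat.card Ω - 1) ≤
    L.kk z * (Nat.card Ω - {v : Ω | g • v = v}.ncard + L.be U * {v : Ω | g • v = v}.ncard)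
def B6Stmt : Prop := AL.{u, v} fun L => L.LK → (∀ U, L.Ln U → 6 ≤ L.be U) ∧
  ∀ z w, z ≠ w → L.mu z w < L.kk z → 6 ≤ (L.Bl z w).ncard
def B26Stmt : Prop := AL.{u, v} fun L => L.LK → L.LS → L.DG →
  (∀ z w, z ≠ w → 6 ≤ (L.Bl z w).ncard) → ∀ U z w, L.Ln U → z ≠ w → 2 ≤ L.mu z w → 26 ≤ L.be U
def K1Stmt : Prop := AL.{u, v} fun L => ∀ z, L.kk z = 1
def L1Stmt : Prop := AL.{u, v} fun {_ _} _ _ _ _ S L => L.LK → L.LS → (∀ z, L.kk z = 1) →
  (∀ U, L.Ln U → 6 ≤ L.be U) → (∀ x y M, L.Cp x M → Fx M y → y = x) ∧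
  ∀ x M, S.C x M → ¬ L.Cp x M → TIc M
def L2Stmt : Prop := AL.{u, v} fun {_ _} _ _ _ _ S L => L.LK → L.LS → (∀ z, L.kk z = 1) → S.D0 →
  ∀ x y M a, S.C x M → ¬ L.Cp x M → TIc M → a ∈ M → a ≠ 1 → a • y = y → y = x

/-! ### Involutions with one fixed point -/

def LaStmt : Prop := A0.{u, v} fun S => S.PK → S.Od → ∀ x y t, Inv t → t ∈ S.N x → t ∈ S.N y → x = y
def O2Stmt : Prop := A0.{u, v} fun S => S.PK →
  ¬ ∀ x y t, Inv t → t ∈ S.N x → t • y = y → x = y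
def O3Stmt : Prop := A0.{u, v} fun S => S.PK → S.Od →
  (∀ x y t, Inv t → t ∈ S.N x → t ∈ S.N y → x = y) →
  ∀ x y t, Inv t → t ∈ S.N x → t • y = y → x = y

/-! ### The trivial intersection case -/

def R2Stmt : Prop := A0.{u, v} fun S => S.Te → S.R1 → ∀ x y M M' a b, S.C x M → S.C y M' → x ≠ y →
  a ∈ M → b ∈ M' → Inv a → Inv b → a * b = b * a → ∃ z M'', S.C z M'' ∧ a * b ∈ M''
def E1aStmt : Prop := A0.{u, v} fun S => S.Te → (∀ x y M M' b, S.C x M → S.C y M' → b ∈ M' →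
  Inv b → b • x = x → cj b M ≠ M → St M y = ⊥) ∧ (S.J0 → S.R1)
def E1Stmt : Prop := A0.{u, v} fun S => S.Te → S.E1 ∧ S.EV
def E2Stmt : Prop := A0.{u, v} fun S => S.Te → S.E1 → S.EV → S.E2 ∧ S.E3
def SsStmt : Prop := A0.{u, v} fun S => S.Te → S.EV → S.E2 → S.E3 → S.SS
def P1Stmt : Prop := A0.{u, v} fun S => S.Te → S.E2 → S.E3 → ∀ x y M M', S.C x M → S.C y M' →
  x ≠ y → Even ((St M y).relIndex M) → AbS (St M' x)
def P2Stmt : Prop := A0.{u, v} fun S => S.Te → S.E2 → S.E3 → ∀ x y M M', S.C x M → S.C y M' →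
  x ≠ y → Odd ((St M y).relIndex M) → AbS (St M' x)
def P3Stmt : Prop := A0.{u, v} fun S => S.Te → S.SS → S.AB → S.IX
def SzStmt : Prop := A0.{u, v} fun S => S.Te → S.E2 → S.E3 → S.IX → ∀ x y M M' Q B, S.C x M →
  S.C y M' → x ≠ y → Sy Q (St M y) → Sy B (St M' x) → Nat.card B ≤ Nat.card Q
def P4Stmt : Prop := A0.{u, v} fun S => S.Te → S.EV → S.E2 → S.E3 → S.SS → ¬ S.IX

/-- The theorem. -/
def MainStmt : Prop := A0.{u, v} fun S => ¬ S.Two

/-- The frozen statement. -/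
def Goal : Prop := ∀ {G : Type u} {Ω : Type v} [Group G] [Finite G] [MulAction G Ω]
  [FaithfulSMul G Ω] [Finite Ω], 3 ≤ Nat.card Ω → MulAction.IsMultiplyPretransitive G Ω 2 →
  ∀ a : Ω, Cfsg.IsLocalSubgroup (MulAction.stabilizer G a) ∨
    ∃ N : Subgroup (MulAction.stabilizer G a), N.Normal ∧ IsSimpleGroup N ∧ ¬ IsMulCommutative N ∧
      Subgroup.centralizer (N : Set (MulAction.stabilizer G a)) = ⊥

/-- A finite nontrivial group without normal `p`-subgroups and with at most one simple subnormal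
subgroup is almost simple. -/
def AsStmt : Prop := ∀ {X : Type u} [Group X] [Finite X] [Nontrivial X],
  (∀ (p : ℕ) (T : Subgroup X), p.Prime → IsPGroup p T → T.Normal → T = ⊥) →
  (∃ M : Subgroup X, M.IsSubnormal ∧ IsSimpleGroup M ∧ ¬ Cm M M) ∧
  (∀ M M' : Subgroup X, M.IsSubnormal → IsSimpleGroup M → ¬ Cm M M → M'.IsSubnormal →
    IsSimpleGroup M' → ¬ Cm M' M' → M ≠ M' → Cm M M') ∧
  ((∀ M M' : Subgroup X, M.IsSubnormal → IsSimpleGroup M → ¬ Cm M M → M'.IsSubnormal →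
    IsSimpleGroup M' → ¬ Cm M' M' → M = M') →
    ∃ N : Subgroup X, N.Normal ∧ IsSimpleGroup N ∧ ¬ IsMulCommutative N ∧
      Subgroup.centralizer (N : Set X) = ⊥)

end Cfsg.Agent.H45.On
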