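import Cfsg.Agent.H45.Srg100
import Cfsg.Agent.H45.Witt
import Cfsg.Agent.H43.Simple
import Cfsg.Agent.S4300

/-! The automorphism group of the Higman–Sims graph. -/

set_option autoImplicit false
set_option linter.unusedSectionVars false
set_option maxRecDepth 1000000

namespace Cfsg.Agent.H45

open Finset MulAction
open scoped Pointwise

variable {α : Type*} [Fintype α] [DecidableEq α] {B : Set (Finset α)}

/-- The automorphism group of the point-block graph. -/
abbrev PBA (B : Set (Finset α)) := pointBlockGraph B ≃g pointBlockGraph B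

instance finite_PBA : Finite (PBA B) :=
  Finite.of_injective (fun φ : PBA B => φ.toEquiv) RelIso.toEquiv_injective

variable (B) in
/-- Automorphisms of the set system act on the point-block graph. -/
def pbHom : setSystemAut B →* PBA B where
  toFun g := pbIso g.1 (mem_setSystemAut_iff.1 g.2)
  map_one' := by
    refine RelIso.ext fun v => ?_
    rcases v with _ | a | b
    · rfl
    · rfl
    · exact congrArg (fun c => some (Sum.inr c)) (Subtype.ext Finset.image_id)
  map_mul' g h := by
    refine RelIso.ext fun v => ?_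
    rcases v with _ | a | b
    · rfl
    · rfl
    · exact congrArg (fun c => some (Sum.inr c)) (Subtype.ext
        (Finset.image_image (s := b.1) (f := h.1) (g := g.1)).symm)

theorem pbHom_none (g : setSystemAut B) : pbHom B g none = none := rfl

theorem pbHom_inl (g : setSystemAut B) (a : α) :
    pbHom B g (some (Sum.inl a)) = some (Sum.inl (g.1 a)) := rfl

theorem pbHom_inr (g : setSystemAut B) (b : B) :
    pbHom B g (some (Sum.inr b)) = some (Sum.inr ⟨b.1.image g.1, mem_aut_iff.1 g.2 _ b.2⟩) := rfl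

theorem pbHom_injective : Function.Injective (pbHom B) := by
  intro g h e
  refine Subtype.ext (Equiv.ext fun a => ?_)
  have : pbHom B g (some (Sum.inl a)) = pbHom B h (some (Sum.inl a)) := by rw [e]
  exact Sum.inl.inj (Option.some.inj this)

theorem pb_adj_none {v : Option (α ⊕ B)} (h : (pointBlockGraph B).Adj none v) :
    ∃ a, v = some (Sum.inl a) := by
  rcases v with _ | a | b
  · exact absurd h pb_none_none
  · exact ⟨a, rfl⟩
  · exact absurd h (pb_none_inr b)

theorem pb_nadj_none {v : Option (α ⊕ B)} (h1 : v ≠ none) (h : ¬ (pointBlockGraph B).Adj none v) :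
    ∃ b, v = some (Sum.inr b) := by
  rcases v with _ | a | b
  · exact absurd rfl h1
  · exact absurd (pb_none_inl a) h
  · exact ⟨b, rfl⟩

theorem exists_pbHom_eq (φ : PBA B) (h : φ none = none) : ∃ g, pbHom B g = φ := by
  have h1 : ∀ a, ∃ a', φ (some (Sum.inl a)) = some (Sum.inl a') := fun a =>
    pb_adj_none (h ▸ φ.map_rel_iff.2 (pb_none_inl a))
  have h2 : ∀ b, ∃ b', φ (some (Sum.inr b)) = some (Sum.inr b') := fun b =>
    pb_nadj_none (fun e => by simpa using φ.injective (e.trans h.symm))
      (fun e => pb_none_inr b (φ.map_rel_iff.1 (h.symm ▸ e)))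
  choose s hs using h1
  choose t ht using h2
  have hinj : Function.Injective s := fun a a' e => by
    have := φ.injective ((hs a).trans (e ▸ (hs a').symm))
    simpa using this
  let σ : Equiv.Perm α := Equiv.ofBijective s (Finite.injective_iff_bijective.1 hinj)
  have h3 : ∀ b : B, (b : Finset α).image σ = t b := by
    intro b
    ext y
    obtain ⟨a, rfl⟩ := σ.surjective y
    rw [Function.Injective.mem_finset_image σ.injective, ← pb_inl_inr, ← pb_inl_inr, ← ht,
      ← φ.map_rel_iff, hs]
    rfl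
  refine ⟨⟨σ, mem_aut_iff.2 fun b hb => ?_⟩, RelIso.ext fun v => ?_⟩
  · rw [h3 ⟨b, hb⟩]; exact (t _).2
  · rcases v with _ | a | b
    · exact h.symm
    · exact (hs a).symm
    · rw [pbHom_inr, ht]
      exact congrArg (fun c => some (Sum.inr c)) (Subtype.ext (h3 b))

theorem range_pbHom : (pbHom B).range = stabilizer (PBA B) (none : Option (α ⊕ B)) := by
  ext φ
  constructor
  · rintro ⟨g, rfl⟩; exact pbHom_none g
  · exact exists_pbHom_eq φ

theorem exists_iso_pb' (hα : Fintype.card α = 22) (hB : IsSteinerSystem 3 6 B)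
    {V : Type*} [Fintype V] {G : SimpleGraph V} [DecidableRel G.Adj]
    (h : G.IsSRGWith 100 22 0 6) (x : V) : ∃ e : G ≃g pointBlockGraph B, e x = none := by
  classical
  obtain ⟨e, he⟩ := exists_iso_pb h x
  obtain ⟨f, hf⟩ := iso22 (by rw [card_neighborSet, card_nb h]) hα (nDes_steiner h x) hB
  exact ⟨e.trans (pbIso f hf), by rw [RelIso.trans_apply, he]; rfl⟩

theorem pb_transitive (hα : Fintype.card α = 22) (hB : IsSteinerSystem 3 6 B)
    (v : Option (α ⊕ B)) : ∃ φ : PBA B, φ none = v := by
  classical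
  have := Fintype.ofFinite B
  obtain ⟨e, he⟩ := exists_iso_pb' hα hB (pointBlockGraph_srg hα hB) v
  exact ⟨e.symm, by rw [← he, RelIso.symm_apply_apply]⟩

theorem card_pb_vertex (hα : Fintype.card α = 22) (hB : IsSteinerSystem 3 6 B) :
    Nat.card (Option (α ⊕ B)) = 100 := by
  classical
  have := Fintype.ofFinite B
  rw [Nat.card_eq_fintype_card, (pointBlockGraph_srg hα hB).card]

theorem card_stab_none (hα : Fintype.card α = 22) (hB : IsSteinerSystem 3 6 B) :
    Nat.card (stabilizer (PBA B) (none : Option (α ⊕ B))) = 887040 := by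
  rw [← range_pbHom, ← Nat.card_congr (MonoidHom.ofInjective pbHom_injective).toEquiv,
    (aut22 hα hB).1]

theorem card_PBA (hα : Fintype.card α = 22) (hB : IsSteinerSystem 3 6 B) :
    Nat.card (PBA B) = 88704000 := by
  rw [H42.card_eq_ncard_orbit_mul' (none : Option (α ⊕ B)), card_stab_none hα hB,
    Set.eq_univ_of_forall (s := orbit (PBA B) none) (pb_transitive hα hB), Set.ncard_univ,
    card_pb_vertex hα hB]

/-- An involution of `M24` interchanging two points. -/
def gSwap : ℕ := 17184519787777121035013027289728087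

theorem inM_gSwap : H42.inM gSwap = true := by decide +kernel

theorem exists_invol30 (hα : Fintype.card α = 22) (hB : IsSteinerSystem 3 6 B) :
    ∃ g : setSystemAut B, g ^ 2 = 1 ∧ {v | pbHom B g v = v}.ncard = 30 := by
  have hpq := H42.pt23_ne_pt0
  obtain ⟨j, h⟩ := exists_isDer22 hα hB hpq
  obtain ⟨φ, hφ⟩ := h.exists_mulEquiv_two hpq
  have hs : H42.toM gSwap ∈ stabilizer M24 ({H42.pt 23, H42.pt 0} : Finset GolayPt) := by
    rw [mem_stabilizer_iff, Finset.smul_finset_insert, Finset.smul_finset_singleton,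
      H42.toM_smul_pt inM_gSwap (by norm_num), H42.toM_smul_pt inM_gSwap (by norm_num),
      Finset.pair_comm]
    rfl
  refine ⟨φ ⟨_, hs⟩, ?_, ?_⟩
  · rw [← map_pow, ← map_one φ]
    congr 1
    apply Subtype.ext
    show H42.toM gSwap ^ 2 = 1
    rw [← H42.toM_ppow inM_gSwap, H42.toM_eq_one_iff (H42.inM_ppow inM_gSwap 2)]
    decide +kernel
  · rw [ncard_option_sum]
    have h1 : {a | some (Sum.inl a) ∈ {v | pbHom B (φ ⟨_, hs⟩) v = v}}.ncard = 8 := by
      rw [← Set.ncard_image_of_injective _ h.inj]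
      have : j '' {a | some (Sum.inl a) ∈ {v | pbHom B (φ ⟨_, hs⟩) v = v}} =
          (H42.toSet 1230376 : Finset GolayPt) := by
        have key : ∀ p, p ∈ H42.toSet 1230376 ↔ p ∉ ({H42.pt 23, H42.pt 0} : Finset GolayPt) ∧
            H42.pt (H42.app gSwap (H42.idx p)) = p := by
          simp only [H42.mem_toSet]
          decide +kernel
        have k2 : ∀ p, H42.toM gSwap • p = H42.pt (H42.app gSwap (H42.idx p)) := fun p => by
          rw [← H42.toM_smul_pt inM_gSwap (H42.idx_lt p), H42.pt_idx]
        ext p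
        simp only [Set.mem_image, Set.mem_ofPred_eq, pbHom_inl, Option.some.injEq, Sum.inl.injEq,
          Finset.mem_coe, key, ← k2]
        constructor
        · rintro ⟨a, ha, rfl⟩
          exact ⟨h.notMem a, by rw [← hφ ⟨_, hs⟩ a, ha]⟩
        · rintro ⟨h1, h2⟩
          obtain ⟨a, rfl⟩ := h.surj p h1
          exact ⟨a, h.inj (by rw [hφ]; exact h2), rfl⟩
      rw [this, Set.ncard_coe_finset, H42.card_toSet (by norm_num)]
      decide +kernel
    have hX : ∀ b : Finset α, (b.image (φ ⟨_, hs⟩).1).image j ∪ {H42.pt 23, H42.pt 0} =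
        H42.toM gSwap • (b.image j ∪ {H42.pt 23, H42.pt 0}) := by
      intro b
      rw [Finset.smul_finset_union, mem_stabilizer_iff.1 hs, Finset.image_image]
      congr 1
      show _ = Finset.image _ _
      rw [Finset.image_image]
      congr 1
      funext a
      exact hφ _ a
    have hinj : Function.Injective fun b : Finset α => b.image j ∪ {H42.pt 23, H42.pt 0} := by
      intro b c e
      ext a
      have h3 : ∀ b : Finset α, j a ∈ b.image j ∪ {H42.pt 23, H42.pt 0} ↔ a ∈ b := fun b => by
        rw [Finset.mem_union, Function.Injective.mem_finset_image h.inj]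
        exact or_iff_left (h.notMem a)
      rw [← h3, ← h3]
      exact iff_of_eq (congrArg (j a ∈ ·) e)
    have h2 : {b | some (Sum.inr b) ∈ {v | pbHom B (φ ⟨_, hs⟩) v = v}}.ncard = 21 := by
      rw [← Set.ncard_image_of_injective _ (hinj.comp Subtype.val_injective)]
      have : ((fun b : Finset α => b.image j ∪ {H42.pt 23, H42.pt 0}) ∘ Subtype.val) ''
          {b | some (Sum.inr b) ∈ {v | pbHom B (φ ⟨_, hs⟩) v = v}} =
          {o | o ∈ octads ∧ H42.pt 23 ∈ o ∧ H42.pt 0 ∈ o ∧ H42.toM gSwap • o = o} := by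
        ext o
        simp only [Set.mem_image, Set.mem_ofPred_eq, pbHom_inr, Option.some.injEq, Sum.inr.injEq,
          Function.comp_apply, Subtype.ext_iff]
        constructor
        · rintro ⟨b, hb, rfl⟩
          exact ⟨(h.mem _).1 b.2, by simp, by simp, by rw [← hX, hb]⟩
        · rintro ⟨h1, h2, h3, h4⟩
          have h5 : (Finset.univ.filter fun a => j a ∈ o).image j ∪ {H42.pt 23, H42.pt 0} = o := by
            ext p
            simp only [Finset.mem_union, Finset.mem_image, Finset.mem_filter, Finset.mem_univ,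
              true_and]
            constructor
            · rintro (⟨a, ha, rfl⟩ | hp)
              · exact ha
              · rcases Finset.mem_insert.1 hp with rfl | hp
                · exact h2
                · rw [Finset.mem_singleton.1 hp]; exact h3
            · intro hp
              by_cases hpX : p ∈ ({H42.pt 23, H42.pt 0} : Finset GolayPt)
              · exact Or.inr hpX
              · obtain ⟨a, rfl⟩ := h.surj p hpX
                exact Or.inl ⟨a, hp, rfl⟩
          refine ⟨⟨_, (h.mem _).2 (h5.symm ▸ h1)⟩, hinj ?_, h5⟩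
          exact (hX _).trans ((congrArg _ h5).trans (h4.trans h5.symm))
      rw [this, H42.ncard_codeSets _ (fun n => H42.iteB (Nat.beq (H42.pc n) 8) (H42.iteB
        (H42.tb n 23) (H42.iteB (H42.tb n 0) (Nat.beq (H42.img gSwap n) n) false) false) false)
        (fun _ h => h.1.1)]
      · decide +kernel
      · intro n hn
        simp only [iteB_and, Set.mem_ofPred_eq, H42.toSet_mem_octads_iff' hn, H42.beq_iff,
          H42.pt_mem_toSet (show 23 < 24 by norm_num), H42.pt_mem_toSet (show 0 < 24 by norm_num),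
          H42.toM_smul_toSet inM_gSwap, H42.toSet_eq_iff
            (H42.img_lt (H42.inM_isPerm inM_gSwap) n) (H42.isCode_lt hn)]
    rw [h1, h2]
    simp [pbHom_none]

open Classical in
/-- The sign of a permutation of a finite type. -/
noncomputable def sgnF (X : Type*) [Finite X] : Equiv.Perm X →* ℤˣ :=
  have := Fintype.ofFinite X
  Equiv.Perm.sign

theorem sgnF_of_sq {X : Type*} [Finite X] {σ : Equiv.Perm X} (h : σ ^ 2 = 1) :
    sgnF X σ = (-1) ^ ((Nat.card X - {v | σ v = v}.ncard) / 2) := by
  classical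
  unfold sgnF
  let := Fintype.ofFinite X
  rw [Equiv.Perm.sign_of_pow_two_eq_one h, ← Nat.card_eq_fintype_card, ← Nat.card_eq_fintype_card,
    Nat.card_coe_set_eq]
  rfl

/-- The sign of an automorphism of the point-block graph. -/
noncomputable def pbSign (B : Set (Finset α)) : PBA B →* ℤˣ :=
  (sgnF _).comp (MulAction.toPermHom (PBA B) (Option (α ⊕ B)))

theorem exists_odd (hα : Fintype.card α = 22) (hB : IsSteinerSystem 3 6 B) :
    ∃ g : setSystemAut B, pbSign B (pbHom B g) = -1 := by
  classical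
  obtain ⟨g, h1, h2⟩ := exists_invol30 hα hB
  refine ⟨g, ?_⟩
  rw [pbSign, MonoidHom.comp_apply,
    sgnF_of_sq (by rw [← map_pow, ← map_pow, h1, map_one, map_one]), card_pb_vertex hα hB]
  erw [h2]
  decide

theorem index_ker_of_neg_one {G : Type*} [Group G] (f : G →* ℤˣ) {g : G} (h : f g = -1) :
    f.ker.index = 2 := by
  rw [Subgroup.index_ker]
  have : f.range = ⊤ := by
    rw [eq_top_iff]
    intro u _
    rcases Int.units_eq_one_or u with rfl | rfl
    · exact one_mem _
    · exact ⟨g, h⟩
  rw [this, Subgroup.card_top, Nat.card_eq_fintype_card, Fintype.card_units_int]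

theorem le_of_simple_of_index_two {G : Type*} [Group G] [Finite G] {H K : Subgroup G}
    (hH : IsSimpleGroup H) (h2 : 2 < Nat.card H) (hK : K.index = 2) : H ≤ K := by
  have := Subgroup.normal_of_index_eq_two hK
  rcases (inferInstance : (K.subgroupOf H).Normal).eq_bot_or_eq_top with h | h
  · have h3 := Subgroup.relIndex_dvd_index_of_normal K H
    rw [Subgroup.relIndex, h, Subgroup.index_bot, hK] at h3
    have := Nat.le_of_dvd (by norm_num) h3
    omega
  · exact Subgroup.subgroupOf_eq_top.1 h

theorem eq_of_simple_of_index_two {G : Type*} [Group G] [Finite G] {H K : Subgroup G}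
    (hH : IsSimpleGroup H) (h2 : 2 < Nat.card H) (hH2 : H.index = 2) (hK : K.index = 2) :
    H = K := by
  apply Subgroup.eq_of_le_of_card_ge (le_of_simple_of_index_two hH h2 hK)
  have h3 := H.index_mul_card
  have h4 := K.index_mul_card
  rw [hH2] at h3
  rw [hK] at h4
  omega

/-- The Higman–Sims group of a point-block graph. -/
noncomputable def pbHS (B : Set (Finset α)) : Subgroup (PBA B) := (pbSign B).ker

theorem index_pbHS (hα : Fintype.card α = 22) (hB : IsSteinerSystem 3 6 B) :
    (pbHS B).index = 2 := by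
  obtain ⟨g, hg⟩ := exists_odd hα hB
  exact index_ker_of_neg_one _ hg

theorem card_pbHS (hα : Fintype.card α = 22) (hB : IsSteinerSystem 3 6 B) :
    Nat.card (pbHS B) = 44352000 := by
  have := (pbHS B).index_mul_card
  rw [index_pbHS hα hB, card_PBA hα hB] at this
  omega

theorem stab_pbHS (hα : Fintype.card α = 22) (hB : IsSteinerSystem 3 6 B) :
    IsM22 ↥(pbHS B ⊓ stabilizer (PBA B) (none : Option (α ⊕ B))) ∧
      ∀ x y : Fin 3 → α, Function.Injective x → Function.Injective y →
        ∃ g, pbHom B g ∈ pbHS B ∧ ∀ i, g.1 (x i) = y i := by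
  obtain ⟨-, H, h1, h2, h3⟩ := aut22 hα hB
  obtain ⟨g, hg⟩ := exists_odd hα hB
  have h4 : H = (pbHS B).comap (pbHom B) :=
    eq_of_simple_of_index_two h2.1 (by rw [h2.2]; norm_num) h1
      (index_ker_of_neg_one ((pbSign B).comp (pbHom B)) hg)
  have h5 : H.map (pbHom B) = pbHS B ⊓ stabilizer (PBA B) (none : Option (α ⊕ B)) := by
    rw [h4, Subgroup.map_comap_eq, range_pbHom, inf_comm]
  refine ⟨?_, fun x y hx hy => ?_⟩
  · rw [← h5]
    have e := Subgroup.equivMapOfInjective H _ (pbHom_injective (B := B))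
    have := h2.1
    exact ⟨e.symm.isSimpleGroup, by rw [← Nat.card_congr e.toEquiv, h2.2]⟩
  · obtain ⟨g, hg, h6⟩ := h3 x y hx hy
    exact ⟨g, by rwa [h4] at hg, h6⟩

theorem exists_injective_three {s : Finset α} (h : 3 ≤ s.card) {a : α} (ha : a ∈ s) :
    ∃ x : Fin 3 → α, Function.Injective x ∧ (∀ i, x i ∈ s) ∧ x 0 = a := by
  obtain ⟨y, h1, h2, h3⟩ := H42.exists_extend_tuple s (k := 1) (by norm_num) h ![a]
    (Function.injective_of_subsingleton _) (by simpa using ha)
  exact ⟨y, h1, h2, h3 0⟩

theorem pbHS_trans_inl (hα : Fintype.card α = 22) (hB : IsSteinerSystem 3 6 B) (a a' : α) :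
    ∃ g ∈ pbHS B, g none = none ∧ g (some (Sum.inl a)) = some (Sum.inl a') := by
  obtain ⟨x, h1, -, h2⟩ := exists_injective_three (s := Finset.univ)
    (by rw [Finset.card_univ, hα]; norm_num) (Finset.mem_univ a)
  obtain ⟨y, h3, -, h4⟩ := exists_injective_three (s := Finset.univ)
    (by rw [Finset.card_univ, hα]; norm_num) (Finset.mem_univ a')
  obtain ⟨g, hg, h5⟩ := (stab_pbHS hα hB).2 x y h1 h3
  exact ⟨_, hg, rfl, by rw [pbHom_inl, ← h2, h5, h4]⟩

theorem pbHS_trans_inr (hα : Fintype.card α = 22) (hB : IsSteinerSystem 3 6 B) (b b' : B) :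
    ∃ g ∈ pbHS B, g none = none ∧ g (some (Sum.inr b)) = some (Sum.inr b') := by
  obtain ⟨a, ha⟩ : (b : Finset α).Nonempty := Finset.card_pos.1 (by rw [hB.1 _ b.2]; norm_num)
  obtain ⟨a', ha'⟩ : (b' : Finset α).Nonempty := Finset.card_pos.1 (by rw [hB.1 _ b'.2]; norm_num)
  obtain ⟨x, h1, h2, -⟩ := exists_injective_three (by rw [hB.1 _ b.2]; norm_num) ha
  obtain ⟨y, h3, h4, -⟩ := exists_injective_three (by rw [hB.1 _ b'.2]; norm_num) ha'
  obtain ⟨g, hg, h5⟩ := (stab_pbHS hα hB).2 x y h1 h3
  refine ⟨_, hg, rfl, ?_⟩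
  rw [pbHom_inr]
  refine congrArg (fun c => some (Sum.inr c)) (Subtype.ext ?_)
  apply block_eq_of_subset hB (mem_aut_iff.1 g.2 _ b.2) b'.2 (s := Finset.univ.image y)
  · intro z hz
    obtain ⟨i, -, rfl⟩ := Finset.mem_image.1 hz
    exact Finset.mem_image.2 ⟨x i, h2 i, h5 i⟩
  · intro z hz
    obtain ⟨i, -, rfl⟩ := Finset.mem_image.1 hz
    exact h4 i
  · rw [Finset.card_image_of_injective _ h3]; simp

theorem pbHS_primAt (hα : Fintype.card α = 22) (hB : IsSteinerSystem 3 6 B) :
    H43.PrimAt (pbHS B) (none : Option (α ⊕ B)) := by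
  have htr : ∀ v, ∃ g ∈ pbHS B, g • (none : Option (α ⊕ B)) = v := by
    have h1 := H42.card_eq_ncard_orbit_mul (pbHS B) (none : Option (α ⊕ B))
    rw [card_pbHS hα hB, (stab_pbHS hα hB).1.2] at h1
    have h2 : orbit (pbHS B) (none : Option (α ⊕ B)) = Set.univ :=
      Set.eq_of_subset_of_ncard_le (Set.subset_univ _)
        (by rw [Set.ncard_univ, card_pb_vertex hα hB]; omega) (Set.toFinite _)
    intro v
    obtain ⟨g, hg⟩ : v ∈ orbit (pbHS B) (none : Option (α ⊕ B)) := h2 ▸ Set.mem_univ v
    exact ⟨g.1, g.2, hg⟩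
  refine ⟨htr, fun S h0 hS => ?_⟩
  have h1 : ∀ a, some (Sum.inl a) ∈ S → ∀ a', some (Sum.inl a') ∈ S := by
    intro a ha a'
    obtain ⟨g, hg, h2, h3⟩ := pbHS_trans_inl hα hB a a'
    exact h3 ▸ hS g hg (h2.symm ▸ h0 :) _ ha
  have h2 : ∀ a, some (Sum.inr a) ∈ S → ∀ a', some (Sum.inr a') ∈ S := by
    intro a ha a'
    obtain ⟨g, hg, h2, h3⟩ := pbHS_trans_inr hα hB a a'
    exact h3 ▸ hS g hg (h2.symm ▸ h0 :) _ ha
  have h3 : ∀ a, some (Sum.inl a) ∈ S → ∃ b, some (Sum.inr b) ∈ S := by
    intro a ha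
    obtain ⟨x, h3, -, h4⟩ := exists_injective_three (s := Finset.univ)
      (by rw [Finset.card_univ, hα]; norm_num) (Finset.mem_univ a)
    obtain ⟨b, ⟨hb, h5⟩, -⟩ := hB.2 (Finset.univ.image x)
      (by rw [Finset.card_image_of_injective _ h3]; simp)
    obtain ⟨g, hg, h6⟩ := htr (some (Sum.inl a))
    have h7 : (pointBlockGraph B).Adj (g none) (g (g.symm (some (Sum.inr ⟨b, hb⟩)))) := by
      rw [RelIso.apply_symm_apply, show g none = _ from h6, pb_inl_inr]
      exact h5 (Finset.mem_image.2 ⟨0, Finset.mem_univ _, h4⟩)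
    obtain ⟨c, hc⟩ := pb_adj_none (g.map_rel_iff.1 h7)
    have := hS g hg (h6.symm ▸ ha) _ (hc ▸ h1 a ha c)
    exact ⟨⟨b, hb⟩, by simpa using this⟩
  have h4 : ∀ b, some (Sum.inr b) ∈ S → ∃ a, some (Sum.inl a) ∈ S := by
    intro b hb
    obtain ⟨a, -, ha⟩ := Finset.exists_mem_notMem_of_card_lt_card (s := b.1) (t := Finset.univ)
      (by rw [Finset.card_univ, hα, hB.1 _ b.2]; norm_num)
    obtain ⟨g, hg, h6⟩ := htr (some (Sum.inr b))
    have h7 : ¬ (pointBlockGraph B).Adj (g none) (g (g.symm (some (Sum.inl a)))) := by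
      rwa [RelIso.apply_symm_apply, show g none = _ from h6, pb_inr_inl]
    obtain ⟨c, hc⟩ := pb_nadj_none (fun e => by
      have := congrArg g e
      rw [RelIso.apply_symm_apply, show g none = _ from h6] at this
      simp at this) (fun e => h7 (g.map_rel_iff.2 e))
    have := hS g hg (h6.symm ▸ hb) _ (hc ▸ h2 b hb c)
    exact ⟨a, by simpa using this⟩
  by_cases h : S = {none}
  · exact Or.inl h
  right
  obtain ⟨v, hv, hv'⟩ : ∃ v ∈ S, v ≠ none := by
    by_contra hh
    push Not at hh
    exact h (Set.eq_singleton_iff_unique_mem.2 ⟨h0, hh⟩)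
  have h5 : (∃ a, some (Sum.inl a) ∈ S) ∧ ∃ b, some (Sum.inr b) ∈ S := by
    rcases v with _ | a | b
    · exact absurd rfl hv'
    · exact ⟨⟨a, hv⟩, h3 a hv⟩
    · exact ⟨h4 b hv, b, hv⟩
  obtain ⟨⟨a, ha⟩, b, hb⟩ := h5
  refine Set.eq_univ_of_forall fun w => ?_
  rcases w with _ | a' | b'
  · exact h0
  · exact h1 a ha a'
  · exact h2 b hb b'

theorem no_regular_normal_100 {G X : Type*} [Group G] [Finite G] [MulAction G X]
    [FaithfulSMul G X] [IsPreprimitive G X] (hX : Nat.card X = 100) (x : X) (N : Subgroup G)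
    [N.Normal] [IsPretransitive N X] (h : stabilizer N x = ⊥) : False := by
  have h1 : Nat.card N = 100 := by
    rw [H42.card_eq_ncard_orbit_mul' x, h, orbit_eq_univ, Set.ncard_univ, hX, Subgroup.card_bot]
  have : Fact (Nat.Prime 5) := ⟨by norm_num⟩
  let P : Sylow 5 N := default
  have h2 : Nat.card P = 25 := by
    rw [Sylow.card_eq_multiplicity, h1]
    have : (100 : ℕ).factorization 5 = 2 := by
      rw [show (100 : ℕ) = 5 ^ 2 * 4 by norm_num, Nat.factorization_mul (by norm_num) (by norm_num),
        Nat.Prime.factorization_pow (by norm_num)]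
      simp [Nat.factorization_eq_zero_of_not_dvd]
    rw [this]; norm_num
  have h3 : (P : Subgroup N).index = 4 := by
    have := (P : Subgroup N).index_mul_card
    rw [h1, h2] at this
    omega
  have h4 : Nat.card (Sylow 5 N) = 1 := by
    have h5 := card_sylow_modEq_one 5 N
    have h6 := P.card_dvd_index
    rw [h3] at h6
    have h7 := Nat.le_of_dvd (by norm_num) h6
    generalize Nat.card (Sylow 5 N) = k at h5 h7
    interval_cases k <;> simp_all [Nat.ModEq]
  have : Subsingleton (Sylow 5 N) := (Nat.card_eq_one_iff_unique.1 h4).1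
  have : (P : Subgroup N).Characteristic := P.characteristic_of_subsingleton
  have h5 : Nat.card ((P : Subgroup N).map N.subtype) = 25 := by
    rw [Subgroup.card_map_of_injective N.subtype_injective, h2]
  have h6 : IsPretransitive ((P : Subgroup N).map N.subtype) X := by
    apply IsQuasiPreprimitive.isPretransitive_of_normal
    intro h7
    have : (P : Subgroup N).map N.subtype = ⊥ := by
      rw [eq_bot_iff]
      intro g hg
      rw [Subgroup.mem_bot]
      apply eq_of_smul_eq_smul (α := X)
      intro a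
      have : a ∈ fixedPoints ((P : Subgroup N).map N.subtype) X := h7 ▸ Set.mem_univ a
      rw [one_smul]
      exact this ⟨g, hg⟩
    rw [this] at h5
    simp at h5
  have h7 := H42.card_eq_ncard_orbit_mul' (G := (P : Subgroup N).map N.subtype) x
  rw [h5, orbit_eq_univ, Set.ncard_univ, hX] at h7
  omega

theorem isHS_pbHS (hα : Fintype.card α = 22) (hB : IsSteinerSystem 3 6 B) : IsHS (pbHS B) := by
  refine ⟨?_, card_pbHS hα hB⟩
  have hp := (pbHS_primAt hα hB).isPreprimitive
  have e : stabilizer (pbHS B) (none : Option (α ⊕ B)) ≃*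
      ↥(pbHS B ⊓ stabilizer (PBA B) (none : Option (α ⊕ B))) :=
    (MulEquiv.subgroupCongr (by ext g; simp [Subgroup.mem_subgroupOf]; rfl)).trans
      (Subgroup.subgroupOfEquivOfLe inf_le_left)
  have := (stab_pbHS hα hB).1.1
  rcases S4300.result hp none e.isSimpleGroup with h | ⟨N, h1, -, -, h2, h3⟩
  · exact h
  · exact (no_regular_normal_100 (card_pb_vertex hα hB) none N (h3 _)).elim

end Cfsg.Agent.H45
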