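import Cfsg.Agent.H45.Monomial
import Cfsg.Agent.H28.Act

/-! The hexacode. -/

set_option autoImplicit false
set_option linter.unusedSectionVars false
set_option maxRecDepth 1000000

namespace Cfsg.Agent.H45

open Finset
open scoped H28

variable {F : Type*} [Field F] {ω : F}

theorem two_eq_zero_of_card_four [Fintype F] (hF : Fintype.card F = 4) : (2 : F) = 0 := by
  have h := FiniteField.cast_card_eq_zero F
  rw [hF] at h
  have : (2 : F) ^ 2 = 0 := by rw [← h]; norm_num
  exact pow_eq_zero_iff two_ne_zero |>.1 this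

theorem mem_hex_iff (h2 : (2 : F) = 0) (hω : ω ^ 2 + ω + 1 = 0) {x : Fin 6 → F} :
    x ∈ hexacode F ω ↔ x 0 + x 1 = x 2 + x 3 ∧ x 2 + x 3 = x 4 + x 5 ∧
      x 0 + x 2 + x 4 = ω * (x 0 + x 1) := by
  constructor
  · intro hx
    induction hx using Submodule.span_induction with
    | mem x hx =>
      simp only [Set.mem_insert_iff, Set.mem_singleton_iff] at hx
      rcases hx with rfl | rfl | rfl <;> simp only [Matrix.cons_val] <;> grind
    | zero => simp
    | add x y _ _ hx hy => simp only [Pi.add_apply]; grind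
    | smul a x _ hx => simp only [Pi.smul_apply, smul_eq_mul]; grind
  · rintro ⟨h3, h4, h5⟩
    rw [hexacode, Submodule.mem_span_triple]
    refine ⟨x 0 + x 1 + (x 0 + (x 0 + x 1) * ω), x 0 + (x 0 + x 1) * ω + (x 4 + (x 0 + x 1) * ω ^ 2),
      x 4 + (x 0 + x 1) * ω ^ 2, ?_⟩
    funext i
    fin_cases i <;> simp <;> grind

/-- The systematic encoder of the hexacode. -/
def hexEnc (ω : F) (t : F × F × F) : Fin 6 → F :=
  ![t.1, t.2.1, t.2.2, t.1 + t.2.1 + t.2.2, t.1 + t.2.2 + ω * (t.1 + t.2.1),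
    t.2.1 + t.2.2 + ω * (t.1 + t.2.1)]

theorem hexEnc_inj (ω : F) : Function.Injective (hexEnc ω) := by
  rintro ⟨a, b, c⟩ ⟨a', b', c'⟩ h
  have h0 := congrFun h 0
  have h1 := congrFun h 1
  have h2 := congrFun h 2
  simp only [hexEnc, Matrix.cons_val] at h0 h1 h2
  rw [h0, h1, h2]

theorem mem_hex_iff_enc (h2 : (2 : F) = 0) (hω : ω ^ 2 + ω + 1 = 0) {x : Fin 6 → F} :
    x ∈ hexacode F ω ↔ ∃ t, hexEnc ω t = x := by
  rw [mem_hex_iff h2 hω]
  constructor
  · rintro ⟨h3, h4, h5⟩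
    refine ⟨(x 0, x 1, x 2), ?_⟩
    funext i
    fin_cases i <;> simp [hexEnc] <;> grind
  · rintro ⟨⟨a, b, c⟩, rfl⟩
    simp only [hexEnc, Matrix.cons_val]
    grind

/-- The weight of a word. -/
def hexWt [DecidableEq F] (x : Fin 6 → F) : ℕ := (Finset.univ.filter fun i => x i ≠ 0).card

theorem hexWt_map [DecidableEq F] {K : Type*} [Field K] [DecidableEq K] (e : F ≃+* K)
    (t : F × F × F) : hexWt (hexEnc (e ω) (e t.1, e t.2.1, e t.2.2)) = hexWt (hexEnc ω t) := by
  unfold hexWt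
  congr 1
  ext i
  have : hexEnc (e ω) (e t.1, e t.2.1, e t.2.2) i = e (hexEnc ω t i) := by
    fin_cases i <;> simp [hexEnc]
  simp [this]

theorem ncard_hex [Fintype F] [DecidableEq F] (hF : Fintype.card F = 4) (hω : ω ^ 2 + ω + 1 = 0)
    (P : ℕ → Prop) [DecidablePred P] (n : ℕ)
    (h : ∀ w : H28.F4, w ^ 2 + w + 1 = 0 →
      (Finset.univ.filter fun t => P (hexWt (hexEnc w t))).card = n) :
    {x | x ∈ hexacode F ω ∧ P (hexWt x)}.ncard = n := by
  let e := H28.equivF4 hF
  rw [← h (e ω) (by simpa using congrArg e hω), ← Set.ncard_coe_finset]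
  have : {x | x ∈ hexacode F ω ∧ P (hexWt x)} = hexEnc ω '' {t | P (hexWt (hexEnc ω t))} := by
    ext x
    simp only [Set.mem_ofPred_eq, mem_hex_iff_enc (two_eq_zero_of_card_four hF) hω, Set.mem_image]
    constructor
    · rintro ⟨⟨t, rfl⟩, h⟩; exact ⟨t, h, rfl⟩
    · rintro ⟨t, h, rfl⟩; exact ⟨⟨t, rfl⟩, h⟩
  rw [this, Set.ncard_image_of_injective _ (hexEnc_inj ω)]
  let E := e.toEquiv.prodCongr (e.toEquiv.prodCongr e.toEquiv)
  rw [← Set.ncard_image_of_injective _ E.injective]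
  congr 1
  ext t
  obtain ⟨t, rfl⟩ := E.surjective t
  rw [E.injective.mem_set_image, Finset.mem_coe, Finset.mem_filter, Set.mem_ofPred_eq,
    ← hexWt_map e]
  exact (and_iff_right (Finset.mem_univ _)).symm

theorem hex_weights [Fintype F] [DecidableEq F] (hF : Fintype.card F = 4)
    (hω : ω ^ 2 + ω + 1 = 0) : Nat.card (hexacode F ω) = 64 ∧
      (∀ x ∈ hexacode F ω, x ≠ 0 → hexWt x = 4 ∨ hexWt x = 6) ∧
      {x | x ∈ hexacode F ω ∧ hexWt x = 4}.ncard = 45 ∧
      {x | x ∈ hexacode F ω ∧ hexWt x = 6}.ncard = 18 := by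
  refine ⟨?_, fun x hx h0 => ?_, ncard_hex hF hω (· = 4) _ (by decide +kernel),
    ncard_hex hF hω (· = 6) _ (by decide +kernel)⟩
  · have := ncard_hex hF hω (fun _ => True) 64 (by decide +kernel)
    simp only [and_true] at this
    rw [← SetLike.coe_sort_coe, Nat.card_coe_set_eq]
    exact this
  · have := ncard_hex hF hω (fun n => ¬ (n = 0 ∨ n = 4 ∨ n = 6)) 0 (by decide +kernel)
    rw [Set.ncard_eq_zero] at this
    have h1 : ¬ (x ∈ hexacode F ω ∧ ¬ (hexWt x = 0 ∨ hexWt x = 4 ∨ hexWt x = 6)) :=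
      Set.eq_empty_iff_forall_notMem.1 this x
    refine (not_not.1 (not_and.1 h1 hx)).resolve_left fun h => h0 ?_
    funext i
    by_contra hi
    exact Finset.filter_eq_empty_iff.1 (Finset.card_eq_zero.1 h) (Finset.mem_univ i) hi

theorem hex_const (h2 : (2 : F) = 0) (hω : ω ^ 2 + ω + 1 = 0) {σ : Equiv.Perm (Fin 6)}
    (hσ : σ = 1 ∨ σ = Equiv.swap 0 1) (c : Fin 6 → Fˣ)
    (h : ∀ x ∈ hexacode F ω, monomialMap σ c x ∈ hexacode F ω) (i j : Fin 6) : c i = c j := by
  have h3 := (mem_hex_iff h2 hω).1 (h ![1, 1, 1, 1, 0, 0] ((mem_hex_iff h2 hω).2 (by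
    simp only [Matrix.cons_val]; grind)))
  have h4 := (mem_hex_iff h2 hω).1 (h ![0, 0, 1, 1, 1, 1] ((mem_hex_iff h2 hω).2 (by
    simp only [Matrix.cons_val]; grind)))
  have key : ∀ i, (c i : F) = c 0 := by
    rcases hσ with rfl | rfl <;>
    · simp [monomialMap, Equiv.Perm.one_def, Equiv.swap_apply_def] at h3 h4
      intro i
      fin_cases i <;> simp only [Fin.zero_eta, Fin.mk_one, Fin.reduceFinMk] <;> grind
  exact Units.ext ((key i).trans (key j).symm)

theorem swap_notMem_hex [Finite F] (h2 : (2 : F) = 0) (hω : ω ^ 2 + ω + 1 = 0) :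
    Equiv.swap 0 1 ∉ monoK (hexacode F ω) := by
  rintro ⟨c, hc⟩
  have h1 := fun i => hex_const h2 hω (Or.inr rfl) c hc i 0
  have h3 := ((mem_hex_iff h2 hω).1 (hc _ (Submodule.subset_span (Or.inl rfl)))).2.2
  simp [monomialMap, Equiv.swap_apply_def, h1] at h3
  have := (c 0).ne_zero
  grind

theorem monoK_hex [Finite F] (h2 : (2 : F) = 0) (hω : ω ^ 2 + ω + 1 = 0) :
    monoK (hexacode F ω) = alternatingGroup (Fin 6) := by
  let u : Fˣ := ⟨ω, ω ^ 2, by grind, by grind⟩
  let a : Equiv.Perm (Fin 6) := ⟨![1, 2, 0, 3, 4, 5], ![2, 0, 1, 3, 4, 5], by decide, by decide⟩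
  let b : Equiv.Perm (Fin 6) := ⟨![0, 2, 3, 4, 5, 1], ![0, 5, 1, 2, 3, 4], by decide, by decide⟩
  have ha : a ∈ monoK (hexacode F ω) := by
    refine ⟨![1, 1, 1, 1, u ^ 2, u], monomialMap_mem_span ?_⟩
    rintro x (rfl | rfl | rfl) <;> rw [mem_hex_iff h2 hω] <;> simp [monomialMap, a, u] <;> grind
  have hb : b ∈ monoK (hexacode F ω) := by
    refine ⟨![1, u ^ 2, u, u ^ 2, 1, u], monomialMap_mem_span ?_⟩
    rintro x (rfl | rfl | rfl) <;> rw [mem_hex_iff h2 hω] <;> simp [monomialMap, b, u] <;> grind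
  have hle : alternatingGroup (Fin 6) ≤ monoK (hexacode F ω) := by
    refine (le_of_chain (monoK (hexacode F ω) ⊓ alternatingGroup (Fin 6)) _ inf_le_right 4
      (Fin.ofNat 6) (by decide) ?_ ?_).trans inf_le_left
    · have key : ∀ g : Equiv.Perm (Fin 6), Equiv.Perm.sign g = 1 →
          (∀ i < 4, g (Fin.ofNat 6 i) = Fin.ofNat 6 i) → g = 1 := by decide +kernel
      intro g hg h
      rw [key g hg h]
      exact one_mem _
    · have key : ∀ i < 4, ∀ y, (∀ j < i, y ≠ Fin.ofNat 6 j) → ∃ w ∈ [[], [true], [true, true], [false, true, true], [false, false, true, true], [false, false, false, true, true], [false], [false, false], [false, false, false], [false, false, false, false], [false, true, false, true, false, false, false], [true, false, true, false], [false, false, true, false, true, true, false, true], [false, false, true, false, true, false, false], [false, true, true, false, false, true, false, false, true, true, false]],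
          (∀ j < i, evW a b w (Fin.ofNat 6 j) = Fin.ofNat 6 j) ∧ evW a b w (Fin.ofNat 6 i) = y := by
        decide +kernel
      intro i hi y hy
      obtain ⟨w, -, h⟩ := key i hi y hy
      exact ⟨_, evW_mem (Subgroup.mem_inf.2 ⟨ha, (by decide : Equiv.Perm.sign a = 1)⟩)
        (Subgroup.mem_inf.2 ⟨hb, (by decide : Equiv.Perm.sign b = 1)⟩) w, h⟩
  refine le_antisymm (fun g hg => ?_) hle
  by_contra hn
  apply swap_notMem_hex h2 hω
  have h3 : g⁻¹ * Equiv.swap 0 1 ∈ alternatingGroup (Fin 6) := by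
    rw [Equiv.Perm.mem_alternatingGroup] at hn ⊢
    rw [map_mul, map_inv, (Int.units_eq_one_or _).resolve_left hn,
      Equiv.Perm.sign_swap (by decide)]
    rfl
  simpa using mul_mem hg (hle h3)

end Cfsg.Agent.H45
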