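import Cfsg.Agent.H97.JmDefs

/-! The subgroup of order `501397585920` is maximal. -/

set_option autoImplicit false

namespace Cfsg.Agent.H97.JM

open Subgroup

universe u

namespace CV

/-- The numerical test. -/
def tst (n : ℕ) : Bool :=
  n % 501397585920 != 0 || !(ok n) || !(cg n 23 [11, 22]) || n == 501397585920 ||
    n == 86775571046077562880

theorem tst_all : allD tst = true := by decide +kernel

end CV

theorem pCV (hALLD : ALLD) (hOK : OK.{u}) (hCONG : CONG.{u}) : CV.{u} := by
  intro G _ _ c M hM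
  have hp : Nat.Prime 23 := by norm_num
  haveI : Fact (Nat.Prime 23) := ⟨hp⟩
  have sq : ∀ H : Subgroup G, ¬ 23 ^ 2 ∣ Nat.card H := fun H h => by
    have := h.trans (card_subgroup_dvd_card H)
    rw [c.card] at this
    norm_num at this
  refine ⟨fun h => ?_, fun H hH => ?_⟩
  · have := c.card
    rw [h, card_top, this] at hM
    norm_num at hM
  obtain ⟨a', ha'⟩ := exists_prime_orderOf_dvd_card' (G := M) 23 (by rw [hM]; norm_num)
  have ha : orderOf (a' : G) = 23 := by rw [orderOf_coe, ha']
  have hN := (c.big 23 22 (by simp) a' ha).2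
  obtain ⟨d, d1, d2, -, d4⟩ := hCONG G M 23 22 a' hp a'.2 ha (sq M) hN
  obtain ⟨e, e1, e2, e3, e4⟩ := hCONG G H 23 22 a' hp (hH.le a'.2) ha (sq H) hN
  have de : d ∣ e := by
    have := card_dvd_of_le (inf_le_inf_right
      (normalizer ((zpowers (a' : G) : Subgroup G) : Set G)) hH.le)
    rw [d1, e1] at this
    exact Nat.dvd_of_mul_dvd_mul_left (by norm_num) this
  have d11 : d = 11 := by
    rw [hM] at d4
    have h22 : d ≤ 22 := Nat.le_of_dvd (by norm_num) d2
    interval_cases d <;> simp_all
  subst d11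
  have he : e = 11 ∨ e = 22 := by
    have h22 : e ≤ 22 := Nat.le_of_dvd (by norm_num) e2
    interval_cases e <;> simp_all
  have hd : Nat.card H ∣ 86775571046077562880 := c.card ▸ card_subgroup_dvd_card H
  have t := hALLD CV.tst CV.tst_all _ hd
  have hm : Nat.card H % 501397585920 = 0 :=
    Nat.mod_eq_zero_of_dvd (hM ▸ card_dvd_of_le hH.le)
  have hc : cg (Nat.card H) 23 [11, 22] = true := by
    have e5 := Nat.mod_eq_zero_of_dvd e3
    rcases he with rfl | rfl <;> simp [cg, e4, e5]
  simp only [CV.tst, hm, hOK G c H, hc, bne_self_eq_false, Bool.not_true, Bool.or_self,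
    Bool.false_or, Bool.or_eq_true, beq_iff_eq] at t
  rcases t with t | t
  · exact absurd (eq_of_le_of_card_ge hH.le (by rw [t, hM])) hH.ne
  · exact eq_top_of_card_eq H (by rw [t, c.card])

end Cfsg.Agent.H97.JM
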