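import Mathlib
import Cfsg.Prelude.Def_SporadicCombinatorics

/-! Monomial automorphisms of linear codes; stabiliser chains given by words. -/

set_option autoImplicit false
set_option linter.unusedSectionVars false

namespace Cfsg.Agent.H45

section chain

variable {G X : Type*} [Group G] [MulAction G X]

theorem le_of_chain (K A : Subgroup G) (hKA : K ≤ A) (n : ℕ) (p : ℕ → X)
    (hinj : ∀ i < n, ∀ j < i, p i ≠ p j)
    (hrig : ∀ g ∈ A, (∀ i < n, g • p i = p i) → g ∈ K)
    (hstep : ∀ i < n, ∀ y, (∀ j < i, y ≠ p j) →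
      ∃ k ∈ K, (∀ j < i, k • p j = p j) ∧ k • p i = y) : A ≤ K := by
  have key : ∀ d i, i + d = n → ∀ g ∈ A, (∀ j < i, g • p j = p j) → g ∈ K := by
    intro d
    induction d with
    | zero => rintro i rfl; exact hrig
    | succ d ih =>
      intro i hi g hg hfix
      obtain ⟨k, hk, h1, h2⟩ := hstep i (by omega) (g • p i) (fun j hj e =>
        hinj i (by omega) j hj (smul_left_cancel g (e.trans (hfix j hj).symm)))
      have := ih (i + 1) (by omega) (k⁻¹ * g) (A.mul_mem (A.inv_mem (hKA hk)) hg) (fun j hj => by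
        rw [mul_smul, inv_smul_eq_iff]
        rcases Nat.lt_succ_iff_lt_or_eq.1 hj with h | rfl
        · rw [hfix j h, h1 j h]
        · exact h2.symm)
      simpa using K.mul_mem hk this
  exact fun g hg => key n 0 (by omega) g hg (fun j hj => absurd hj (by omega))

/-- The value of a word in two generators. -/
def evW (a b : G) (w : List Bool) : G := (w.map fun s => cond s a b).prod

theorem evW_mem {K : Subgroup G} {a b : G} (ha : a ∈ K) (hb : b ∈ K) (w : List Bool) :
    evW a b w ∈ K := by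
  apply K.list_prod_mem
  intro x hx
  obtain ⟨s, -, rfl⟩ := List.mem_map.1 hx
  cases s
  · exact hb
  · exact ha

end chain

variable {α F : Type*} [Field F] [Finite α] [Finite F] {C : Submodule F (α → F)}

theorem monomialMap_comp (σ τ : Equiv.Perm α) (c d : α → Fˣ) (x : α → F) :
    monomialMap σ c (monomialMap τ d x) = monomialMap (σ * τ) (fun i => c i * d (σ.symm i)) x := by
  funext i
  simp [monomialMap, mul_assoc, Equiv.Perm.mul_def]

theorem monomialMap_one (x : α → F) : monomialMap 1 (fun _ => 1) x = x := by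
  funext i
  simp [monomialMap, Equiv.Perm.one_def]

theorem monomialMap_inv (σ : Equiv.Perm α) (c : α → Fˣ) (x : α → F) :
    monomialMap σ⁻¹ (fun i => (c (σ i))⁻¹) (monomialMap σ c x) = x := by
  funext i
  simp [monomialMap, Equiv.Perm.inv_def]

theorem monomialMap_smul (σ : Equiv.Perm α) (c : α → Fˣ) (u : Fˣ) (x : α → F) :
    monomialMap σ (fun i => u * c i) x = (u : F) • monomialMap σ c x := by
  funext i
  simp [monomialMap, mul_assoc]

theorem monomialMap_surj {σ : Equiv.Perm α} {c : α → Fˣ} (h : ∀ x ∈ C, monomialMap σ c x ∈ C)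
    {y : α → F} (hy : y ∈ C) : ∃ x ∈ C, monomialMap σ c x = y := by
  let f : C → C := fun x => ⟨_, h x.1 x.2⟩
  have hf : Function.Injective f := fun x x' e => Subtype.ext (by
    rw [← monomialMap_inv σ c x, ← monomialMap_inv σ c x']
    exact congrArg _ (congrArg Subtype.val e))
  obtain ⟨x, hx⟩ := Finite.injective_iff_surjective.1 hf ⟨y, hy⟩
  exact ⟨x.1, x.2, congrArg Subtype.val hx⟩

theorem monomialMap_mem_span {S : Set (α → F)} {σ : Equiv.Perm α} {c : α → Fˣ}
    (h : ∀ x ∈ S, monomialMap σ c x ∈ C) : ∀ x ∈ Submodule.span F S, monomialMap σ c x ∈ C := by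
  intro x hx
  induction hx using Submodule.span_induction with
  | mem x hx => exact h x hx
  | zero => convert C.zero_mem; funext i; simp [monomialMap]
  | add x y _ _ hx hy => convert C.add_mem hx hy; funext i; simp [monomialMap, mul_add]
  | smul a x _ hx => convert C.smul_mem a hx; funext i; simp [monomialMap, mul_left_comm]

variable (C) in
/-- The permutation parts of the monomial automorphisms of a code. -/
def monoK : Subgroup (Equiv.Perm α) where
  carrier := {σ | ∃ c : α → Fˣ, ∀ x ∈ C, monomialMap σ c x ∈ C}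
  one_mem' := ⟨fun _ => 1, fun x hx => by rwa [monomialMap_one]⟩
  mul_mem' := by
    rintro σ τ ⟨c, hc⟩ ⟨d, hd⟩
    exact ⟨_, fun x hx => monomialMap_comp σ τ c d x ▸ hc _ (hd x hx)⟩
  inv_mem' := by
    rintro σ ⟨c, hc⟩
    refine ⟨fun i => (c (σ i))⁻¹, fun y hy => ?_⟩
    obtain ⟨x, hx, rfl⟩ := monomialMap_surj hc hy
    rwa [monomialMap_inv]

theorem card_monomial [Nonempty α]
    (hd : ∀ c : α → Fˣ, (∀ x ∈ C, monomialMap 1 c x ∈ C) → ∀ i j, c i = c j) :
    Nat.card {f : Equiv.Perm α × (α → Fˣ) // ∀ x ∈ C, monomialMap f.1 f.2 x ∈ C} =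
      Nat.card (monoK C) * Nat.card Fˣ := by
  rw [← Nat.card_prod]
  have h : ∀ σ : monoK C, ∃ c : α → Fˣ, ∀ x ∈ C, monomialMap σ.1 c x ∈ C := fun σ => σ.2
  choose c hc using h
  symm
  refine Nat.card_congr (Equiv.ofBijective (fun t => ⟨(t.1.1, fun i => t.2 * c t.1 i), fun x hx => by
    rw [monomialMap_smul]; exact C.smul_mem _ (hc _ x hx)⟩) ⟨?_, ?_⟩)
  · rintro ⟨σ, u⟩ ⟨τ, v⟩ e
    simp only [Subtype.mk.injEq, Prod.mk.injEq] at e
    obtain rfl : σ = τ := Subtype.ext e.1
    have := congrFun e.2 (Classical.arbitrary α)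
    rw [mul_left_inj] at this
    rw [this]
  · rintro ⟨⟨σ, d⟩, h⟩
    have h1 := hd (fun i => d i * (c ⟨σ, d, h⟩ i)⁻¹) (fun y hy => by
      obtain ⟨x, hx, rfl⟩ := monomialMap_surj (hc ⟨σ, d, h⟩) hy
      rw [monomialMap_comp, one_mul]
      simpa [Equiv.Perm.one_def] using h x hx)
    refine ⟨(⟨σ, d, h⟩, d (Classical.arbitrary α) * (c ⟨σ, d, h⟩ (Classical.arbitrary α))⁻¹),
      Subtype.ext (Prod.ext rfl (funext fun i => ?_))⟩
    show _ * _ = d i
    rw [h1 _ i]
    simp

end Cfsg.Agent.H45
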