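import Cfsg.Agent.H45.OnMain

/-!
The trivial intersection case: involutions of components normalize the components at the points
they fix.
-/

set_option autoImplicit false

namespace Cfsg.Agent.H45.OnE1

open Cfsg.Agent.H45.On

universe u v

theorem e1 (sim : SimStmt.{u}) (inv : InvStmt.{u}) (e1a : E1aStmt.{u, v}) (r2 : R2Stmt.{u, v}) :
    E1Stmt.{u, v} := by
  intro G Ω _ _ _ _ S T
  have E : S.E1 := by
    intro x y M M' b hM hM' hb ib bx
    by_contra hn
    have hxy : x ≠ y := by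
      rintro rfl
      exact hn (same_pt S hM' hM hb)
    have st := (e1a S T).1 x y M M' b hM hM' hb ib bx hn
    have j0 : S.J0 := by
      intro x' y' ne
      obtain ⟨g, gx, gy⟩ := S.tr2 x y x' y' hxy ne
      refine ⟨cj g M, gx ▸ S.conj g hM, eq_bot_iff.2 fun a ha => ?_⟩
      have : g⁻¹ * a * g ∈ St M y := ⟨mem_cj.1 ha.1, by
        have f : a • y' = y' := ha.2
        show (g⁻¹ * a * g) • y = y
        rw [mul_smul, mul_smul, gy, f, ← gy, inv_smul_smul]⟩
      rw [st, Subgroup.mem_bot] at this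
      rw [Subgroup.mem_bot]
      calc a = g * (g⁻¹ * a * g) * g⁻¹ := by group
        _ = 1 := by rw [this]; group
    have r1 := (e1a S T).2 j0
    obtain ⟨⟨s, hs, -, -, is, -⟩, two, -, -, -, cen⟩ := sim M (S.simple hM) (S.nab hM)
    obtain ⟨t, ht, it, ts, st'⟩ := two s hs is
    have sy : y ≠ s • y := fun e => is.2 (by
      have : s ∈ St M y := ⟨hs, e.symm⟩
      rwa [st, Subgroup.mem_bot] at this)
    have hb' : S.C x (cj b M) := bx ▸ S.conj b hM
    have bi : b⁻¹ = b := inv_eq_of_mul_eq_one_right ib.1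
    have si : s⁻¹ = s := inv_eq_of_mul_eq_one_right is.1
    have p : ∀ m ∈ M, b * s * b * m = m * (b * s * b) := fun m hm => by
      have := S.comm hb' hM hn _ (cj_mem hs) m hm
      rwa [bi] at this
    have pn : b * s * b ∉ M := fun h => is.2 (by
      calc s = b⁻¹ * (b * s * b) * b⁻¹ := by group
        _ = 1 := by rw [cen _ h p, mul_one, bi, ib.1])
    have ec : b * (s * b * s⁻¹) = b * s * b * s := by rw [si]; simp only [mul_assoc]
    obtain ⟨z, M'', hz, hc⟩ := r2 S T r1 y (s • y) M' (cj s M') b (s * b * s⁻¹) hM' (S.conj s hM')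
      sy hb (cj_mem hb) ib
      ⟨by
        calc s * b * s⁻¹ * (s * b * s⁻¹) = s * (b * b) * s⁻¹ := by group
          _ = 1 := by rw [ib.1]; group,
       fun e => ib.2 (by
        calc b = s⁻¹ * (s * b * s⁻¹) * s := by group
          _ = 1 := by rw [e]; group)⟩
      (by rw [ec, p s hs, si]; simp only [mul_assoc])
    rw [ec] at hc
    have cm : b * s * b * s ∉ M := fun h => pn (by simpa using M.mul_mem h (M.inv_mem hs))
    have c1 : b * s * b * s ≠ 1 := fun e => cm (e ▸ M.one_mem)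
    have hxz : x ≠ z := by
      rintro rfl
      have ne : M'' ≠ M := fun e => cm (e ▸ hc)
      refine is.2 (cen s hs fun m hm => ?_)
      have := S.comm hz hM ne _ hc m hm
      rw [← mul_assoc, ← p m hm, mul_assoc (b * s * b), mul_assoc (b * s * b)] at this
      exact mul_left_cancel this
    have fz : ∀ m ∈ M, s * m = m * s → m • z = z := fun m hm e =>
      (T.cn hz hc c1 (by rw [← mul_assoc, ← p m hm, mul_assoc, ← e, mul_assoc (b * s * b)])).2
    exact r1 x z M hM hxz ⟨s, ⟨hs, fz s hs rfl⟩, t, ⟨ht, fz t ht st'⟩, is, it, ts.symm, st'⟩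
  refine ⟨E, fun x y M hM => ?_⟩
  obtain ⟨⟨s, hs, -, -, is, -⟩, -⟩ := sim M (S.simple hM) (S.nab hM)
  by_cases hxy : y = x
  · subst hxy
    exact ⟨s, hs, is, S.fx hM s hs⟩
  · obtain ⟨M', b, hM', hb, ib, bx⟩ := T.ev y x hxy
    obtain ⟨a, ha, ia, e⟩ := inv M b ib.1 (E x y M M' b hM hM' hb ib bx) ⟨s, hs, is⟩
    exact ⟨a, ha, ia, (T.cn hM' hb ib.2 e.symm).2⟩

end Cfsg.Agent.H45.OnE1
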