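import Cfsg.Agent.H45.OnDefs

/-!
Components of the point stabilizers of a doubly transitive group: from the main theorem to the
statement about the point stabilizer.
-/

set_option autoImplicit false

namespace Cfsg.Agent.H45.On

universe u v

theorem cm_map {X Y : Type*} [Group X] [Group Y] {f : X →* Y} (hf : Function.Injective f)
    {K K' : Subgroup X} : Cm (K.map f) (K'.map f) ↔ Cm K K' := by
  constructor
  · intro h a ha b hb
    apply hf
    rw [map_mul, map_mul]
    exact h _ ⟨a, ha, rfl⟩ _ ⟨b, hb, rfl⟩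
  · rintro h _ ⟨a, ha, rfl⟩ _ ⟨b, hb, rfl⟩
    rw [← map_mul, ← map_mul, h a ha b hb]

theorem simple_map {X Y : Type*} [Group X] [Group Y] {f : X →* Y} (hf : Function.Injective f)
    {K : Subgroup X} (h : IsSimpleGroup K) : IsSimpleGroup (K.map f) :=
  (K.equivMapOfInjective f hf).symm.isSimpleGroup

theorem fin (mn : MainStmt.{u, v}) (as : AsStmt.{u}) : Goal.{u, v} := by
  intro G Ω _ _ _ _ _ hΩ h2 a
  by_cases hl : Cfsg.IsLocalSubgroup (MulAction.stabilizer G a)
  · exact Or.inl hl
  right
  have tr2 : ∀ x y x' y' : Ω, x ≠ y → x' ≠ y' → ∃ g : G, g • x = x' ∧ g • y = y' :=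
    fun x y x' y' h h' => MulAction.is_two_pretransitive_iff.1 h2 h h'
  have hnt : Nontrivial Ω := Finite.one_lt_card_iff_nontrivial.1 (by omega)
  have tr1 : ∀ x y : Ω, ∃ g : G, g • x = y := by
    intro x y
    obtain ⟨x', hx⟩ := exists_ne x
    obtain ⟨y', hy⟩ := exists_ne y
    obtain ⟨g, h, -⟩ := tr2 x x' y y' hx.symm hy.symm
    exact ⟨g, h⟩
  have faith : ∀ g : G, (∀ x : Ω, g • x = x) → g = 1 := fun g h =>
    FaithfulSMul.eq_of_smul_eq_smul (α := Ω) fun x => by rw [h x, one_smul]
  have hco : IsCoatom (MulAction.stabilizer G a) := by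
    have := MulAction.isPreprimitive_of_is_two_pretransitive h2
    exact MulAction.IsPreprimitive.isCoatom_stabilizer_of_isPreprimitive G a
  set H := MulAction.stabilizer G a with hH
  have hNt : Nontrivial H := by
    obtain ⟨b, c, hb, hc, hbc⟩ : ∃ b c : Ω, a ≠ b ∧ a ≠ c ∧ b ≠ c := by
      haveI := Fintype.ofFinite Ω
      obtain ⟨x, y, z, hxy, hxz, hyz⟩ := (Fintype.two_lt_card_iff (α := Ω)).1
        (by rw [← Nat.card_eq_fintype_card]; omega)
      by_cases h1 : a = x
      · exact ⟨y, z, h1 ▸ hxy, h1 ▸ hxz, hyz⟩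
      · by_cases h2 : a = y
        · exact ⟨x, z, h1, h2 ▸ hyz, hxz⟩
        · exact ⟨x, y, h1, h2, hxy⟩
    obtain ⟨g, ga, gb⟩ := tr2 a b a c hb hc
    refine ⟨⟨⟨g, ga⟩, 1, fun e => hbc ?_⟩⟩
    have : g = 1 := congrArg Subtype.val e
    rw [← gb, this, one_smul]
  have hp : ∀ (p : ℕ) (T : Subgroup H), p.Prime → IsPGroup p T → T.Normal → T = ⊥ := by
    intro p T pp hT hn
    by_contra hb
    apply hl
    refine ⟨p, T.map H.subtype, pp, hT.map _, fun e => hb ?_, ?_⟩
    · exact (Subgroup.map_eq_bot_iff_of_injective T H.subtype_injective).1 e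
    · have le : H ≤ Subgroup.normalizer ((T.map H.subtype : Subgroup G) : Set G) := by
        intro h hh
        have := Subgroup.le_normalizer_map (f := H.subtype) (H := T)
        exact this ⟨⟨h, hh⟩, by rw [Subgroup.normalizer_eq_top]; trivial, rfl⟩
      rcases le.lt_or_eq with lt | e
      · exfalso
        have top := hco.2 _ lt
        apply hb
        rw [eq_bot_iff]
        intro t ht
        rw [Subgroup.mem_bot]
        apply Subtype.ext
        apply faith
        intro x
        obtain ⟨g, rfl⟩ := tr1 a x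
        have hg : g⁻¹ ∈ Subgroup.normalizer ((T.map H.subtype : Subgroup G) : Set G) := by
          rw [top]; trivial
        obtain ⟨t', -, e⟩ := (Subgroup.mem_normalizer_iff.1 hg (t : G)).1 ⟨t, ht, rfl⟩
        have f : (t' : G) • a = a := t'.2
        have e' : (t' : G) = g⁻¹ * t * g := by simpa using e
        rw [e', mul_smul, mul_smul, inv_smul_eq_iff] at f
        exact f
      · exact e
  obtain ⟨⟨K₀, s₀, i₀, n₀⟩, hcomm, huq⟩ := as hp
  have inj : ∀ g : G, Function.Injective (MulAut.conj g).toMonoidHom := fun g =>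
    (MulAut.conj g).injective
  let S : S0 G Ω :=
    { C := fun x M => ∃ (g : G) (K : Subgroup H), g • a = x ∧ K.IsSubnormal ∧ IsSimpleGroup K ∧
        ¬ Cm K K ∧ M = cj g (K.map H.subtype)
      tr2 := tr2
      faith := faith
      nt := exists_pair_ne Ω
      conj := by
        rintro g' x M ⟨g, K, rfl, s, i, n, rfl⟩
        exact ⟨g' * g, K, mul_smul _ _ _, s, i, n, (cj_mul _ _ _).symm⟩
      fx := by
        rintro x M ⟨g, K, rfl, s, i, n, rfl⟩ m hm
        obtain ⟨k, -, e⟩ := mem_cj.1 hm
        have f : (k : G) • a = a := k.2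
        have e' : (k : G) = g⁻¹ * m * g := e
        rw [e', mul_smul, mul_smul, inv_smul_eq_iff] at f
        exact f
      simple := by
        rintro x M ⟨g, K, rfl, s, i, n, rfl⟩
        exact simple_map (inj g) (simple_map H.subtype_injective i)
      nab := by
        rintro x M ⟨g, K, rfl, s, i, n, rfl⟩
        rwa [cm_map (inj g), cm_map H.subtype_injective]
      comm := by
        rintro x M M' ⟨g, K, rfl, s, i, n, rfl⟩ ⟨g', K', e, s', i', n', rfl⟩ ne
        have hh : g⁻¹ * g' ∈ H := by
          show (g⁻¹ * g') • a = a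
          rw [mul_smul, e, inv_smul_smul]
        have e2 : cj g' (K'.map H.subtype) = cj g ((cj (⟨_, hh⟩ : H) K').map H.subtype) := by
          have : (cj (⟨_, hh⟩ : H) K').map H.subtype = cj (g⁻¹ * g') (K'.map H.subtype) := by
            rw [cj, cj, Subgroup.map_map, Subgroup.map_map]; rfl
          rw [this, ← cj_mul, mul_inv_cancel_left]
        rw [e2] at ne ⊢
        rw [cm_map (inj g), cm_map H.subtype_injective]
        exact hcomm _ _ s i n (s'.map (MulAut.conj _).surjective)
          (simple_map (MulAut.conj _).injective i')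
          (by rwa [cm_map (MulAut.conj _).injective]) fun e => ne (by rw [← e])
      one := fun x => by
        obtain ⟨g, e⟩ := tr1 a x
        exact ⟨_, g, K₀, e, s₀, i₀, n₀, rfl⟩ }
  have h := mn S
  unfold S0.Two at h
  push Not at h
  obtain ⟨x, hx⟩ := h
  obtain ⟨g, e⟩ := tr1 a x
  refine huq fun K K' s i n s' i' n' => ?_
  exact Subgroup.map_injective H.subtype_injective
    (cj_inj (hx _ _ ⟨g, K, e, s, i, n, rfl⟩ ⟨g, K', e, s', i', n', rfl⟩))

end Cfsg.Agent.H45.On
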