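import Cfsg.Agent.H45.OnDefs

/-!
Components of the point stabilizers of a doubly transitive group: the assembly of the steps.
-/

set_option autoImplicit false

namespace Cfsg.Agent.H45.On

universe u v

theorem S0.ne_bot {G : Type u} {Ω : Type v} [Group G] [MulAction G Ω] (S : S0 G Ω) {x : Ω}
    {M : Subgroup G} (hM : S.C x M) : M ≠ ⊥ := by
  intro h
  apply S.nab hM
  intro a ha b _
  rw [h] at ha
  rw [Subgroup.mem_bot.1 ha]; simp

theorem odd_case (pk : PkStmt.{u, v}) (la : LaStmt.{u, v}) (o2 : O2Stmt.{u, v})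
    (o3 : O3Stmt.{u, v}) : A0.{u, v} fun S => ¬ S.Od :=
  fun S od => o2 S (pk S) (o3 S (pk S) od (la S (pk S) od))

theorem te_case (e1 : E1Stmt.{u, v}) (e2 : E2Stmt.{u, v}) (ss : SsStmt.{u, v})
    (p1 : P1Stmt.{u, v}) (p2 : P2Stmt.{u, v}) (p3 : P3Stmt.{u, v}) (p4 : P4Stmt.{u, v}) :
    A0.{u, v} fun S => ¬ S.Te := by
  intro G Ω _ _ _ _ S T
  obtain ⟨h1, ev⟩ := e1 S T
  obtain ⟨h2, h3⟩ := e2 S T h1 ev
  have hs := ss S T ev h2 h3
  refine p4 S T ev h2 h3 hs (p3 S T hs ?_)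
  intro y x M' hM' hyx
  obtain ⟨M, hM⟩ := S.one x
  rcases Nat.even_or_odd ((St M y).relIndex M) with h | h
  · exact p1 S T h2 h3 x y M M' hM hM' hyx.symm h
  · exact p2 S T h2 h3 x y M M' hM hM' hyx.symm h

theorem h1_of {G : Type u} {Ω : Type v} [Group G] [MulAction G Ω] (S : S0 G Ω) (two : S.Two)
    (dd : S.D0 ∨ S.D1) : S.H1 := by
  intro x y M hxy
  have key : ∃ M₁ M₂, S.C x M₁ ∧ S.C x M₂ ∧ M₁ ≠ M₂ ∧ ¬ Fx M₁ y ∧ ¬ Fx M₂ y := by
    rcases dd with d | d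
    · obtain ⟨M₁, M₂, h₁, h₂, ne⟩ := two x
      exact ⟨M₁, M₂, h₁, h₂, ne, fun f => hxy (d x y _ h₁ f).symm, fun f => hxy (d x y _ h₂ f).symm⟩
    · obtain ⟨M₁, M₂, h₁, h₂, ne, s₁, s₂⟩ := d x y hxy
      have aux : ∀ T, S.C x T → St T y = ⊥ → ¬ Fx T y := fun T hT s f =>
        S.ne_bot hT (by
          rw [← s]
          exact (inf_eq_left.2 fun m hm => f m hm).symm)
      exact ⟨M₁, M₂, h₁, h₂, ne, aux _ h₁ s₁, aux _ h₂ s₂⟩
  obtain ⟨M₁, M₂, h₁, h₂, ne, f₁, f₂⟩ := key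
  by_cases h : M₁ = M
  · exact ⟨M₂, h₂, fun e => ne (h.trans e.symm), f₂⟩
  · exact ⟨M₁, h₁, h, f₁⟩

theorem same_pt {G : Type u} {Ω : Type v} [Group G] [MulAction G Ω] (S : S0 G Ω) {x : Ω}
    {M M' : Subgroup G} (hM : S.C x M) (hM' : S.C x M') {a : G} (ha : a ∈ M) : cj a M' = M' := by
  by_cases h : M = M'
  · subst h; exact cj_self ha
  · exact cj_of_comm fun m hm => S.comm hM hM' h a ha m hm

theorem line_case (zc : ZcStmt.{u, v}) (tim : TimStmt.{u, v}) (lk : LkStmt.{u, v})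
    (ls : LsStmt.{u, v}) (b6 : B6Stmt.{u, v}) (k1 : K1Stmt.{u, v}) (l1 : L1Stmt.{u, v})
    (l2 : L2Stmt.{u, v}) (od : A0.{u, v} fun S => ¬ S.Od) :
    AL.{u, v} fun {_ _} _ _ _ _ S _ => ¬ S.Two := by
  intro G Ω _ _ _ _ S L two
  have hk := k1 L
  have hlk := lk L
  have hls := ls L hlk
  obtain ⟨la, lb⟩ := l1 L hlk hls hk (b6 L hlk).1
  have nm : S.Nm := by
    intro x y M M' hM f hM' a ha
    by_cases c : L.Cp x M
    · have := la x y M c f
      subst this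
      exact same_pt S hM hM' ha
    · exact tim S L.uq x y M M' hM (lb x M hM c) f hM' a ha
  have d0 := zc S nm
  let S' : S0 G Ω :=
    { C := fun x M => S.C x M ∧ ¬ L.Cp x M
      tr2 := S.tr2
      faith := S.faith
      nt := S.nt
      conj := fun g x M h => ⟨S.conj g h.1, fun c => h.2 ⟨h.1, by
        obtain ⟨g', e⟩ := c.2
        exact ⟨g⁻¹ * g', by rw [cj_mul, ← e, cj_inv_cj]⟩⟩⟩
      fx := fun h => S.fx h.1
      simple := fun h => S.simple h.1
      nab := fun h => S.nab h.1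
      comm := fun h h' => S.comm h.1 h'.1
      one := fun x => by
        obtain ⟨M₁, M₂, h₁, h₂, ne⟩ := two x
        by_cases c₁ : L.Cp x M₁
        · refine ⟨M₂, h₂, fun c₂ => ne ?_⟩
          obtain ⟨B, hB⟩ := Set.ncard_eq_one.1 (hk x)
          have e₁ : M₁ ∈ {M | L.Cp x M} := c₁
          have e₂ : M₂ ∈ {M | L.Cp x M} := c₂
          rw [hB] at e₁ e₂
          exact e₁.trans e₂.symm
        · exact ⟨M₁, h₁, c₁⟩ }
  exact od S' fun x y M t hM ht i f =>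
    l2 L hlk hls hk d0 x y M t hM.1 hM.2 (lb x M hM.1 hM.2) ht i.2 f

theorem main (pk : PkStmt.{u, v}) (uq : UqStmt.{u, v}) (zc : ZcStmt.{u, v})
    (perm : PermStmt.{u, v}) (tim : TimStmt.{u, v}) (lk : LkStmt.{u, v})
    (ls : LsStmt.{u, v}) (b6 : B6Stmt.{u, v}) (k1 : K1Stmt.{u, v}) (l1 : L1Stmt.{u, v})
    (l2 : L2Stmt.{u, v}) (la : LaStmt.{u, v}) (o2 : O2Stmt.{u, v}) (o3 : O3Stmt.{u, v})
    (e1 : E1Stmt.{u, v}) (e2 : E2Stmt.{u, v}) (ss : SsStmt.{u, v})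
    (p1 : P1Stmt.{u, v}) (p2 : P2Stmt.{u, v}) (p3 : P3Stmt.{u, v}) (p4 : P4Stmt.{u, v}) :
    MainStmt.{u, v} := by
  intro G Ω _ _ _ _ S two
  have od : A0.{u, v} fun S => ¬ S.Od := odd_case pk la o2 o3
  have hu := uq S
  have dd : S.D0 ∨ S.D1 := by
    by_cases h : S.Nm
    · exact Or.inl (zc S h)
    · exact Or.inr (perm S h)
  have h1 := h1_of S two dd
  by_cases hall : ∀ x M, S.C x M → TIc M
  · have d0 : S.D0 := zc S fun x y M M' hM f hM' a ha =>
      tim S hu x y M M' hM (hall x M hM) f hM' a ha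
    have ti : S.TI := by
      intro x y M M' hM hM' ne
      by_cases hxy : x = y
      · subst hxy; exact (pk S).disj hM hM' ne
      · obtain ⟨T, hT, hne, f⟩ := h1 y x M' (Ne.symm hxy)
        obtain ⟨s, hs, hsx⟩ : ∃ s ∈ T, s • x ≠ x := by
          by_contra h
          push Not at h
          exact f h
        have e : cj s M ≠ M := fun e => hsx (hu _ _ M (e ▸ S.conj s hM) hM)
        rw [eq_bot_iff, ← hall x M hM s e]
        intro a ha
        refine ⟨ha.1, ?_⟩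
        have c := S.comm hT hM' hne s hs a ha.2
        show a ∈ cj s M
        rw [mem_cj, mul_assoc, ← c, inv_mul_cancel_left]
        exact ha.1
    have ev : S.Ev := by
      have h := od S
      unfold S0.Od at h
      push Not at h
      obtain ⟨x, y, M, t, hM, ht, i, f, ne⟩ := h
      intro x' y' ne'
      obtain ⟨g, gx, gy⟩ := S.tr2 x y x' y' ne.symm ne'
      refine ⟨cj g M, g * t * g⁻¹, gx ▸ S.conj g hM, cj_mem ht, ⟨?_, ?_⟩, ?_⟩
      · calc g * t * g⁻¹ * (g * t * g⁻¹) = g * (t * t) * g⁻¹ := by group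
          _ = 1 := by rw [i.1]; group
      · intro e
        apply i.2
        calc t = g⁻¹ * (g * t * g⁻¹) * g := by group
          _ = 1 := by rw [e]; group
      · rw [← gy, mul_smul, mul_smul, inv_smul_smul, f]
    exact te_case e1 e2 ss p1 p2 p3 p4 S ⟨two, hu, ti, d0, ev⟩
  · push Not at hall
    obtain ⟨x, A, hA, hn⟩ := hall
    unfold TIc at hn
    push Not at hn
    obtain ⟨g₀, n₀, b₀⟩ := hn
    obtain ⟨g, hg, hmax⟩ := Set.exists_max_image {g : G | cj g A ≠ A}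
      (fun g => Nat.card ↥(A ⊓ cj g A)) (Set.toFinite _) ⟨g₀, n₀⟩
    let L : S.Li :=
      { A := A
        ν := Nat.card ↥(A ⊓ cj g A)
        uq := hu
        h1 := h1
        dd := dd
        hA := ⟨x, hA⟩
        one_lt := lt_of_lt_of_le ((Subgroup.one_lt_card_iff_ne_bot _).2 b₀) (hmax g₀ n₀)
        att := ⟨g, hg, rfl⟩
        max := hmax }
    exact line_case zc tim lk ls b6 k1 l1 l2 od L two

end Cfsg.Agent.H45.On
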