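import Cfsg.Agent.H45.OnDefs

/-!
A parity argument: involutions with exactly one fixed point give transitivity.
-/

set_option autoImplicit false

namespace Cfsg.Agent.H45.OnPar

open Cfsg.Agent.H45.On

universe u v

theorem par : ParStmt.{u, v} := by
  intro G Ω _ _ _ Y Φ hY ht z hz z' hz'
  classical
  by_contra hn
  let O := {w : Ω // ∃ c ∈ Y, c • z = w}
  haveI : Fintype O := Fintype.ofFinite O
  haveI : Fact (Nat.Prime 2) := ⟨Nat.prime_two⟩
  have hO : ∀ w : O, w.1 ∈ Φ := by
    rintro ⟨_, c, hc, rfl⟩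
    exact hY c hc z hz
  let f : ∀ t ∈ Y, Function.End O := fun t h w => ⟨t • w.1, by
    obtain ⟨c, hc, e⟩ := w.2
    exact ⟨t * c, Y.mul_mem h hc, by rw [mul_smul, e]⟩⟩
  have key : ∀ t (h : t ∈ Y), t * t = 1 →
      Fintype.card O ≡ Fintype.card (f t h).fixedPoints [MOD 2] := fun t h e =>
    Equiv.Perm.card_fixedPoints_modEq (n := 1) (by
      funext w
      apply Subtype.ext
      show t • t • w.1 = w.1
      rw [← mul_smul, e, one_smul])
  obtain ⟨t, h, e, f1, u1⟩ := ht z hz
  obtain ⟨t', h', e', -, u2⟩ := ht z' hz'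
  have k1 := key t h e
  have k2 := key t' h' e'
  have c1 : Fintype.card (f t h).fixedPoints = 1 := by
    rw [Fintype.card_eq_one_iff]
    refine ⟨⟨⟨z, 1, Y.one_mem, one_smul _ _⟩, Subtype.ext f1⟩, fun w => ?_⟩
    exact Subtype.ext (Subtype.ext (u1 _ (hO _) (congrArg Subtype.val w.2)))
  have c2 : Fintype.card (f t' h').fixedPoints = 0 := by
    rw [Fintype.card_eq_zero_iff]
    refine ⟨fun w => hn ?_⟩
    rw [← u2 _ (hO w.1) (congrArg Subtype.val w.2)]
    exact w.1.2
  rw [c1] at k1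
  rw [c2] at k2
  exact absurd (k1.symm.trans k2) (by decide)

end Cfsg.Agent.H45.OnPar
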