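import Cfsg.Agent.H45.Steiner2
import Cfsg.Agent.Eqn.Cfsg_pointBlockRel

/-! The block graph and the point-block graph of an `S(3,6,22)` are strongly regular. -/

set_option autoImplicit false
set_option linter.unusedSectionVars false

namespace Cfsg.Agent.H45

open Finset

variable {α : Type*} [Fintype α] [DecidableEq α]

theorem ncard_subtype_blk (B : Set (Finset α)) (s r : Finset α) (S : Set B)
    (h : ∀ c : B, c ∈ S ↔ s ⊆ c ∧ Disjoint r c) : S.ncard = cnt B s r := by
  unfold cnt
  rw [← Set.ncard_image_of_injective S Subtype.val_injective]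
  congr 1
  ext c
  simp only [Set.mem_image, mem_blk]
  constructor
  · rintro ⟨d, hd, rfl⟩
    exact ⟨d.2, (h d).1 hd⟩
  · rintro ⟨h1, h2⟩
    exact ⟨⟨c, h1⟩, (h _).2 h2, rfl⟩

theorem blockGraph_adj {t k : ℕ} {B : Set (Finset α)} (hB : IsSteinerSystem t (k + 1) B)
    (b c : B) : (blockGraph B).Adj b c ↔ Disjoint (b : Finset α) c := by
  simp only [blockGraph, SimpleGraph.fromRel_adj]
  constructor
  · rintro ⟨-, h | h⟩
    · exact h
    · exact h.symm
  · intro h
    refine ⟨?_, Or.inl h⟩
    rintro rfl
    have h1 := hB.1 b b.2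
    rw [disjoint_self.1 h] at h1
    simp at h1

theorem blockGraph_srg (hα : Fintype.card α = 22) {B : Set (Finset α)}
    (hB : IsSteinerSystem 3 6 B) [Fintype B] [DecidableRel (blockGraph B).Adj] :
    (blockGraph B).IsSRGWith 77 16 0 4 := by
  have hcn : ∀ b c : B, Fintype.card ((blockGraph B).commonNeighbors b c) = cnt B ∅ (b ∪ c) := by
    intro b c
    rw [← Nat.card_eq_fintype_card, Nat.card_coe_set_eq]
    apply ncard_subtype_blk
    intro d
    simp only [SimpleGraph.mem_commonNeighbors, blockGraph_adj hB, Finset.empty_subset, true_and,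
      Finset.disjoint_union_left]
  refine ⟨?_, ?_, ?_, ?_⟩
  · rw [← s22_zero hα hB, ← ncard_subtype_blk B ∅ ∅ Set.univ (by simp), Set.ncard_univ,
      Nat.card_eq_fintype_card]
  · intro b
    rw [← s22_disj hα hB b.2, ← SimpleGraph.card_neighborSet_eq_degree, ← Nat.card_eq_fintype_card,
      Nat.card_coe_set_eq]
    apply ncard_subtype_blk
    intro d
    simp only [SimpleGraph.mem_neighborSet, blockGraph_adj hB, Finset.empty_subset, true_and]
  · intro b c h
    rw [hcn]
    exact s22_common_of_disj hα hB b.2 c.2 ((blockGraph_adj hB b c).1 h)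
  · intro b c hne h
    rw [hcn]
    apply s22_common_of_meet hα hB b.2 c.2
    rw [blockGraph_adj hB] at h
    refine (inter22 hα hB b.2 c.2 (fun h => hne (Subtype.ext h))).resolve_left ?_
    rwa [Finset.card_eq_zero, ← Finset.disjoint_iff_inter_eq_empty]

section pb
variable {B : Set (Finset α)}

theorem pb_none_none : ¬ (pointBlockGraph B).Adj none none := by simp
theorem pb_none_inl (a : α) : (pointBlockGraph B).Adj none (some (Sum.inl a)) := by
  simp [pointBlockGraph, pointBlockRel]
theorem pb_none_inr (b : B) : ¬ (pointBlockGraph B).Adj none (some (Sum.inr b)) := by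
  simp [pointBlockGraph, pointBlockRel]
theorem pb_inl_none (a : α) : (pointBlockGraph B).Adj (some (Sum.inl a)) none :=
  (pb_none_inl a).symm
theorem pb_inr_none (b : B) : ¬ (pointBlockGraph B).Adj (some (Sum.inr b)) none :=
  fun h => pb_none_inr b h.symm
theorem pb_inl_inl (a a' : α) :
    ¬ (pointBlockGraph B).Adj (some (Sum.inl a)) (some (Sum.inl a')) := by
  simp [pointBlockGraph, pointBlockRel]
theorem pb_inl_inr (a : α) (b : B) :
    (pointBlockGraph B).Adj (some (Sum.inl a)) (some (Sum.inr b)) ↔ a ∈ (b : Finset α) := by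
  simp [pointBlockGraph, pointBlockRel]
theorem pb_inr_inl (a : α) (b : B) :
    (pointBlockGraph B).Adj (some (Sum.inr b)) (some (Sum.inl a)) ↔ a ∈ (b : Finset α) := by
  rw [SimpleGraph.adj_comm, pb_inl_inr]
theorem pb_inr_inr {t k : ℕ} (hB : IsSteinerSystem t (k + 1) B) (b c : B) :
    (pointBlockGraph B).Adj (some (Sum.inr b)) (some (Sum.inr c)) ↔ Disjoint (b : Finset α) c := by
  rw [← blockGraph_adj hB]
  simp [pointBlockGraph, pointBlockRel, blockGraph]

end pb

theorem ncard_option_sum {β γ : Type*} [Finite β] [Finite γ] (S : Set (Option (β ⊕ γ))) :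
    S.ncard = ({u : Unit | none ∈ S}).ncard + ({a | some (Sum.inl a) ∈ S}).ncard +
      ({b | some (Sum.inr b) ∈ S}).ncard := by
  rw [← Set.ncard_image_of_injective {u : Unit | none ∈ S} (f := fun _ => (none : Option (β ⊕ γ)))
      (fun _ _ _ => rfl),
    ← Set.ncard_image_of_injective {a | some (Sum.inl a) ∈ S}
      (f := fun a => (some (Sum.inl a) : Option (β ⊕ γ))) (fun _ _ h => by simpa using h),
    ← Set.ncard_image_of_injective {a | some (Sum.inr a) ∈ S}
      (f := fun a => (some (Sum.inr a) : Option (β ⊕ γ))) (fun _ _ h => by simpa using h),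
    ← Set.ncard_union_eq, ← Set.ncard_union_eq]
  · congr 1
    ext x
    rcases x with _ | a | b <;> simp
  · rw [Set.disjoint_left]
    rintro x (⟨_, _, rfl⟩ | ⟨_, _, rfl⟩) ⟨_, _, h⟩ <;> simp at h
  · rw [Set.disjoint_left]
    rintro x ⟨_, _, rfl⟩ ⟨_, _, h⟩
    simp at h

theorem pointBlockGraph_srg (hα : Fintype.card α = 22) {B : Set (Finset α)}
    (hB : IsSteinerSystem 3 6 B) [Fintype B] [DecidableRel (pointBlockGraph B).Adj] :
    (pointBlockGraph B).IsSRGWith 100 22 0 6 := by
  have hcard : Fintype.card B = 77 := by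
    rw [← s22_zero hα hB, ← ncard_subtype_blk B ∅ ∅ Set.univ (by simp), Set.ncard_univ,
      Nat.card_eq_fintype_card]
  have hcn : ∀ v w, Fintype.card ((pointBlockGraph B).commonNeighbors v w) =
      ({u : Unit | (pointBlockGraph B).Adj v none ∧ (pointBlockGraph B).Adj w none}).ncard +
      ({a | (pointBlockGraph B).Adj v (some (Sum.inl a)) ∧
        (pointBlockGraph B).Adj w (some (Sum.inl a))}).ncard +
      ({b | (pointBlockGraph B).Adj v (some (Sum.inr b)) ∧
        (pointBlockGraph B).Adj w (some (Sum.inr b))}).ncard := by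
    intro v w
    rw [← Nat.card_eq_fintype_card, Nat.card_coe_set_eq, ncard_option_sum]
    rfl
  have hpb : ∀ (a : α) (b : B), Fintype.card ((pointBlockGraph B).commonNeighbors
      (some (Sum.inl a)) (some (Sum.inr b))) = cnt B {a} b := by
    intro a b
    rw [hcn, ← ncard_subtype_blk B {a} b {c : B | a ∈ (c : Finset α) ∧ Disjoint (b : Finset α) c}
      (by simp)]
    simp [pb_inl_inl, pb_inr_none, pb_inl_inr, pb_inr_inr hB]
  have hbb : ∀ (b c : B), Fintype.card ((pointBlockGraph B).commonNeighbors
      (some (Sum.inr b)) (some (Sum.inr c))) = ((b : Finset α) ∩ c).card + cnt B ∅ (b ∪ c) := by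
    intro b c
    rw [hcn, ← ncard_subtype_blk B ∅ (b ∪ c)
      {d : B | Disjoint (b : Finset α) d ∧ Disjoint (c : Finset α) d} (by simp),
      ← Set.ncard_coe_finset]
    simp only [pb_inr_none, pb_inr_inl, pb_inr_inr hB, and_self, Set.setOf_false, Set.ncard_empty,
      zero_add, Finset.coe_inter]
    rfl
  have hnb : ∀ (b : B), Fintype.card ((pointBlockGraph B).commonNeighbors
      none (some (Sum.inr b))) = 6 := by
    intro b
    rw [hcn, ← hB.1 b b.2, ← Set.ncard_coe_finset]
    simp only [pb_inr_none, pb_inr_inl, pb_none_inl, pb_none_inr, and_false, false_and, true_and,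
      Set.setOf_false, Set.ncard_empty, zero_add, add_zero]
    rfl
  have hsymm : ∀ v w, Fintype.card ((pointBlockGraph B).commonNeighbors v w) =
      Fintype.card ((pointBlockGraph B).commonNeighbors w v) := by
    intro v w
    rw [← Nat.card_eq_fintype_card, ← Nat.card_eq_fintype_card,
      SimpleGraph.commonNeighbors_symm]
  refine ⟨?_, ?_, ?_, ?_⟩
  · rw [Fintype.card_option, Fintype.card_sum, hα, hcard]
  · intro v
    rw [← SimpleGraph.card_neighborSet_eq_degree, ← Nat.card_eq_fintype_card,
      Nat.card_coe_set_eq, ncard_option_sum]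
    rcases v with _ | a | b
    · simp [pb_none_inl, pb_none_inr, hα]
    · have := ncard_subtype_blk B {a} ∅ {c : B | a ∈ (c : Finset α)} (by simp)
      rw [s22_one hα hB] at this
      simp [pb_inl_none, pb_inl_inl, pb_inl_inr, this]
    · have := ncard_subtype_blk B ∅ b {c : B | Disjoint (b : Finset α) c} (by simp)
      rw [s22_disj hα hB b.2] at this
      have h2 : {a | a ∈ (b : Finset α)}.ncard = 6 := by
        rw [← hB.1 b b.2, ← Set.ncard_coe_finset]; rfl
      simp only [SimpleGraph.mem_neighborSet, pb_inr_none, pb_inr_inl, pb_inr_inr hB, this, h2]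
      simp
  · intro v w h
    rcases v with _ | a | b <;> rcases w with _ | a' | b'
    · exact absurd h pb_none_none
    · rw [hcn]; simp [pb_inl_inl, pb_none_inr]
    · exact absurd h (pb_none_inr _)
    · rw [hcn]; simp [pb_inl_inl, pb_none_inr]
    · exact absurd h (pb_inl_inl _ _)
    · rw [hpb]
      apply cnt_eq_zero_of_not_disjoint
      simpa [pb_inl_inr] using h
    · exact absurd h (pb_inr_none _)
    · rw [hsymm, hpb]
      apply cnt_eq_zero_of_not_disjoint
      simpa [pb_inr_inl] using h
    · rw [pb_inr_inr hB] at h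
      rw [hbb, s22_common_of_disj hα hB b.2 b'.2 h, Finset.disjoint_iff_inter_eq_empty.1 h]
      rfl
  · intro v w hne h
    rcases v with _ | a | b <;> rcases w with _ | a' | b'
    · exact absurd rfl hne
    · exact absurd (pb_none_inl _) h
    · exact hnb _
    · exact absurd (pb_inl_none _) h
    · have h2 : a ≠ a' := fun h => hne (by rw [h])
      have := ncard_subtype_blk B {a, a'} ∅ {c : B | a ∈ (c : Finset α) ∧ a' ∈ (c : Finset α)}
        (by simp [Finset.insert_subset_iff])
      rw [s22_two hα hB (Finset.card_pair h2)] at this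
      rw [hcn]
      simp [pb_inl_none, pb_inl_inl, pb_inl_inr, this]
    · rw [hpb]
      exact s22_disj_one hα hB b'.2 (by simpa [pb_inl_inr] using h)
    · rw [hsymm]; exact hnb _
    · rw [hsymm, hpb]
      exact s22_disj_one hα hB b.2 (by simpa [pb_inr_inl] using h)
    · rw [pb_inr_inr hB] at h
      have h2 : ((b : Finset α) ∩ b').card = 2 := by
        refine (inter22 hα hB b.2 b'.2 (fun h => hne (by rw [Subtype.ext h]))).resolve_left ?_
        rwa [Finset.card_eq_zero, ← Finset.disjoint_iff_inter_eq_empty]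
      rw [hbb, h2, s22_common_of_meet hα hB b.2 b'.2 h2]

end Cfsg.Agent.H45
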