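import Cfsg.Agent.H45.SrgCount
import Cfsg.Agent.H45.Srg
import Cfsg.Agent.H45.Mask

/-! A strongly regular graph with parameters `(100,22,0,6)` is a point-block graph. -/

set_option autoImplicit false
set_option linter.unusedSectionVars false

namespace Cfsg.Agent.H45

open Finset

variable {V : Type*} [Fintype V] [DecidableEq V] {G : SimpleGraph V} [DecidableRel G.Adj]

theorem srg100_two (h : G.IsSRGWith 100 22 0 6) {x y v : V} (hxy : x ≠ y) (nxy : ¬ G.Adj x y)
    (hvx : v ≠ x) (hvy : v ≠ y) (nxv : ¬ G.Adj x v) (nyv : ¬ G.Adj y v) :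
    (nb G x ∩ nb G y ∩ nb G v).card = 2 := by
  set U := nb G x ∩ nb G y with hU
  have hc : U.card = 6 := card_cn_nadj h hxy nxy
  have h1 := sum_nb_univ h U
  have h2 := sum_sq_coclique h (U := U) (fun u hu u' hu' =>
    not_adj_of_adj h (mem_nb.1 (Finset.mem_inter.1 hu).1) (mem_nb.1 (Finset.mem_inter.1 hu').1))
  have h3 : ∑ v, (((U ∩ nb G v).card : ℤ) - 2) ^ 2 = 184 := by
    simp only [sub_sq, Finset.sum_add_distrib, Finset.sum_sub_distrib, mul_assoc, ← Finset.mul_sum,
      ← Finset.sum_mul, h1, h2, hc, Finset.sum_const, Finset.card_univ, h.card]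
    norm_num
  have h4 : ∀ z w, U ⊆ nb G z → w ∈ nb G z → (U ∩ nb G w).card = 0 := by
    intro z w hz hw
    rw [Finset.card_eq_zero, Finset.eq_empty_iff_forall_notMem]
    intro u hu
    rw [Finset.mem_inter] at hu
    exact not_adj_of_adj h (mem_nb.1 hw) (mem_nb.1 (hz hu.1)) (mem_nb.1 hu.2)
  have h5 := eq_zero_of_sum_le (f := fun v => (((U ∩ nb G v).card : ℤ) - 2) ^ 2)
    (fun _ => sq_nonneg _) (S := insert x (insert y (nb G x ∪ nb G y))) (i := v) (by
      rw [h3, Finset.sum_insert (by simp [mem_nb', hxy, nxy]),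
        Finset.sum_insert (by simp [mem_nb, nxy]),
        Finset.inter_eq_left.2 Finset.inter_subset_left,
        Finset.inter_eq_left.2 Finset.inter_subset_right, hc,
        Finset.sum_congr rfl (g := fun _ => 4)]
      · have := Finset.card_union_add_card_inter (nb G x) (nb G y)
        rw [card_nb h, card_nb h, ← hU, hc] at this
        rw [Finset.sum_const, show (nb G x ∪ nb G y).card = 38 by omega]
        norm_num
      · intro w hw
        rcases Finset.mem_union.1 hw with hw | hw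
        · rw [h4 x w Finset.inter_subset_left hw]; norm_num
        · rw [h4 y w Finset.inter_subset_right hw]; norm_num)
    (by simp [mem_nb, hvx, hvy, nxv, nyv])
  have h6 := pow_eq_zero_iff (two_ne_zero) |>.1 h5
  omega

variable (G) in
/-- The block of a vertex on the neighbourhood of `x`. -/
def nblk (x y : V) : Finset (G.neighborSet x) := Finset.univ.filter fun a => G.Adj y a

variable (G) in
/-- The design on the neighbourhood of `x`. -/
def nDes (x : V) : Set (Finset (G.neighborSet x)) := {b | ∃ y, y ≠ x ∧ ¬ G.Adj x y ∧ nblk G x y = b}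

theorem mem_nblk {x y : V} {a : G.neighborSet x} : a ∈ nblk G x y ↔ G.Adj y a := by simp [nblk]

theorem card_subtype_nb {x : V} (s : Finset (G.neighborSet x)) (t : Finset V)
    (h : ∀ v, v ∈ t ↔ ∃ hv : G.Adj x v, (⟨v, hv⟩ : G.neighborSet x) ∈ s) : s.card = t.card := by
  rw [← Finset.card_image_of_injective s Subtype.val_injective]
  congr 1
  ext v
  rw [h]
  simp

theorem card_nblk_inter (x y z : V) :
    (nblk G x y ∩ nblk G x z).card = (nb G x ∩ nb G y ∩ nb G z).card :=
  card_subtype_nb _ _ (by simp [mem_nblk, mem_nb]; tauto)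

theorem card_nblk (x y : V) : (nblk G x y).card = (nb G x ∩ nb G y).card :=
  card_subtype_nb _ _ (by simp [mem_nblk, mem_nb])

theorem card_neighborSet (x : V) : Fintype.card (G.neighborSet x) = (nb G x).card :=
  card_subtype_nb _ _ (by simp [mem_nb])

theorem nblk_inter100 (h : G.IsSRGWith 100 22 0 6) {x y z : V} (hy : y ≠ x) (hy' : ¬ G.Adj x y)
    (hz : z ≠ x) (hz' : ¬ G.Adj x z) (hyz : y ≠ z) :
    (nblk G x y ∩ nblk G x z).card = if G.Adj y z then 0 else 2 := by
  rw [card_nblk_inter]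
  split_ifs with a
  · have := Finset.card_le_card (show nb G x ∩ nb G y ∩ nb G z ⊆ nb G y ∩ nb G z from
      Finset.inter_subset_inter_right Finset.inter_subset_right)
    have := card_cn_adj h a
    omega
  · exact srg100_two h hy.symm hy' hz hyz.symm hz' a

theorem nblk_inj100 (h : G.IsSRGWith 100 22 0 6) {x y z : V} (hy : y ≠ x) (hy' : ¬ G.Adj x y)
    (hz : z ≠ x) (hz' : ¬ G.Adj x z) (e : nblk G x y = nblk G x z) : y = z := by
  by_contra hyz
  have := nblk_inter100 h hy hy' hz hz' hyz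
  rw [← e, Finset.inter_self, card_nblk, card_cn_nadj h hy.symm hy'] at this
  split_ifs at this; omega

theorem nDes_steiner (h : G.IsSRGWith 100 22 0 6) (x : V) : IsSteinerSystem 3 6 (nDes G x) := by
  constructor
  · rintro _ ⟨y, hy, hy', rfl⟩
    rw [card_nblk, card_cn_nadj h hy.symm hy']
  · intro s hs
    have hu : ∀ b ∈ nDes G x, ∀ c ∈ nDes G x, s ⊆ b → s ⊆ c → b = c := by
      rintro _ ⟨y, hy, hy', rfl⟩ _ ⟨z, hz, hz', rfl⟩ h1 h2
      by_contra hne
      have h3 := nblk_inter100 h hy hy' hz hz' (fun e => hne (by rw [e]))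
      have := Finset.card_le_card (Finset.subset_inter h1 h2)
      split_ifs at h3 <;> omega
    suffices ∃ b ∈ nDes G x, s ⊆ b by
      obtain ⟨b, hb, h1⟩ := this
      exact ⟨b, ⟨hb, h1⟩, fun c hc => hu c hc.1 b hb hc.2 h1⟩
    obtain ⟨a, b, c, hab, hac, hbc, rfl⟩ := Finset.card_eq_three.1 hs
    have n : ∀ a b : G.neighborSet x, ¬ G.Adj a b := fun a b => not_adj_of_adj h a.2 b.2
    have h1 := srg100_two h (Subtype.val_injective.ne hab) (n a b)
      (Subtype.val_injective.ne hac.symm) (Subtype.val_injective.ne hbc.symm) (n a c) (n b c)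
    obtain ⟨y, hy, hyx⟩ := Finset.exists_mem_ne (h1 ▸ one_lt_two) x
    simp only [Finset.mem_inter, mem_nb'] at hy
    exact ⟨_, ⟨y, hyx, fun e => not_adj_of_adj h a.2 e hy.1.1.symm, rfl⟩, by
      simp [Finset.insert_subset_iff, mem_nblk, hy.1.1, hy.1.2, hy.2]⟩

theorem exists_iso_pb (h : G.IsSRGWith 100 22 0 6) (x : V) :
    ∃ e : G ≃g pointBlockGraph (nDes G x), e x = none := by
  let f : V → Option (G.neighborSet x ⊕ nDes G x) := fun v =>
    if h1 : v = x then none else if h2 : G.Adj x v then some (Sum.inl ⟨v, h2⟩)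
      else some (Sum.inr ⟨_, v, h1, h2, rfl⟩)
  have f1 : f x = none := dif_pos rfl
  have f2 : ∀ v (hv : G.Adj x v), f v = some (Sum.inl ⟨v, hv⟩) := fun v hv => by
    simp only [f, dif_neg hv.ne.symm, dif_pos hv]
  have f3 : ∀ v (h1 : v ≠ x) (h2 : ¬ G.Adj x v), f v = some (Sum.inr ⟨_, v, h1, h2, rfl⟩) :=
    fun v h1 h2 => by simp only [f, dif_neg h1, dif_neg h2]
  have cs : ∀ v, v = x ∨ G.Adj x v ∨ (v ≠ x ∧ ¬ G.Adj x v) := fun v => by tauto
  refine ⟨⟨Equiv.ofBijective f ⟨?_, ?_⟩, ?_⟩, f1⟩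
  · intro v w e
    rcases cs v with rfl | hv | ⟨hv, hv'⟩ <;> rcases cs w with rfl | hw | ⟨hw, hw'⟩
    · rfl
    · rw [f1, f2 w hw] at e; simp at e
    · rw [f1, f3 w hw hw'] at e; simp at e
    · rw [f1, f2 v hv] at e; simp at e
    · rw [f2 w hw, f2 v hv] at e
      exact congrArg Subtype.val (Sum.inl.inj (Option.some.inj e))
    · rw [f3 w hw hw', f2 v hv] at e; simp at e
    · rw [f1, f3 v hv hv'] at e; simp at e
    · rw [f2 w hw, f3 v hv hv'] at e; simp at e
    · rw [f3 w hw hw', f3 v hv hv'] at e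
      exact nblk_inj100 h hv hv' hw hw' (congrArg Subtype.val (Sum.inr.inj (Option.some.inj e)))
  · rintro (_ | ⟨v, hv⟩ | ⟨_, v, h1, h2, rfl⟩)
    · exact ⟨x, f1⟩
    · exact ⟨v, f2 v hv⟩
    · exact ⟨v, f3 v h1 h2⟩
  · intro v w
    show (pointBlockGraph _).Adj (f v) (f w) ↔ _
    rcases cs v with rfl | hv | ⟨hv, hv'⟩ <;> rcases cs w with rfl | hw | ⟨hw, hw'⟩
    · simp
    · rw [f1, f2 w hw]; simp [pb_none_inl, hw]
    · rw [f1, f3 w hw hw']; simp [pb_none_inr, hw']
    · rw [f1, f2 v hv]; simp [pb_inl_none, hv.symm]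
    · rw [f2 w hw, f2 v hv]; simp [pb_inl_inl, not_adj_of_adj h hv hw]
    · rw [f3 w hw hw', f2 v hv, pb_inl_inr, mem_nblk, G.adj_comm]
    · rw [f1, f3 v hv hv']; exact iff_of_false (pb_inr_none _) (fun a => hv' a.symm)
    · rw [f2 w hw, f3 v hv hv', pb_inr_inl, mem_nblk]
    · rw [f3 w hw hw', f3 v hv hv', pb_inr_inr (nDes_steiner h x),
        Finset.disjoint_iff_inter_eq_empty, ← Finset.card_eq_zero]
      by_cases e : v = w
      · subst e
        simp only [Finset.inter_self, card_nblk, card_cn_nadj h hv.symm hv']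
        simp
      · simp only [nblk_inter100 h hv hv' hw hw' e]
        split_ifs with a <;> simp [a]

section pbIso

variable {α β : Type*} [Fintype α] [DecidableEq α] [Fintype β] [DecidableEq β]

/-- The bijection of blocks induced by an isomorphism. -/
def blkEquiv (e : α ≃ β) {B : Set (Finset α)} {B' : Set (Finset β)} (h : mapB e B = B') :
    B ≃ B' where
  toFun b := ⟨b.1.image e, h ▸ image_mem_mapB.2 b.2⟩
  invFun b := ⟨b.1.image e.symm, mem_mapB.1 (by rw [h]; exact b.2)⟩
  left_inv b := Subtype.ext (image_symm_image e b.1)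
  right_inv b := Subtype.ext (image_image_symm e b.1)

theorem pbRel_map (e : α ≃ β) {B : Set (Finset α)} {B' : Set (Finset β)} (h : mapB e B = B')
    (u v : Option (α ⊕ B)) :
    pointBlockRel B' ((e.sumCongr (blkEquiv e h)).optionCongr u)
      ((e.sumCongr (blkEquiv e h)).optionCongr v) ↔ pointBlockRel B u v := by
  rcases u with _ | a | b <;> rcases v with _ | a' | b' <;>
    simp [pointBlockRel, blkEquiv, Finset.disjoint_image e.injective]

/-- The isomorphism of point-block graphs induced by an isomorphism of set systems. -/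
def pbIso (e : α ≃ β) {B : Set (Finset α)} {B' : Set (Finset β)} (h : mapB e B = B') :
    pointBlockGraph B ≃g pointBlockGraph B' :=
  ⟨(e.sumCongr (blkEquiv e h)).optionCongr, fun {u v} => by
    simp only [pointBlockGraph, SimpleGraph.fromRel_adj, pbRel_map, ne_eq,
      EmbeddingLike.apply_eq_iff_eq]⟩

theorem pbIso_none (e : α ≃ β) {B : Set (Finset α)} {B' : Set (Finset β)} (h : mapB e B = B') :
    pbIso e h none = none := rfl

theorem pbIso_inl (e : α ≃ β) {B : Set (Finset α)} {B' : Set (Finset β)} (h : mapB e B = B')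
    (a : α) : pbIso e h (some (Sum.inl a)) = some (Sum.inl (e a)) := rfl

theorem pbIso_inr (e : α ≃ β) {B : Set (Finset α)} {B' : Set (Finset β)} (h : mapB e B = B')
    (b : B) : pbIso e h (some (Sum.inr b)) = some (Sum.inr (blkEquiv e h b)) := rfl

end pbIso

end Cfsg.Agent.H45
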