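import Mathlib

/-! Counting in strongly regular graphs. -/

set_option autoImplicit false
set_option linter.unusedSectionVars false

namespace Cfsg.Agent.H45

open Finset

variable {V : Type*} [Fintype V] [DecidableEq V] {G : SimpleGraph V} [DecidableRel G.Adj]
  {n k l m : ℕ}

/-- The neighbours of a vertex. -/
def nb (G : SimpleGraph V) [DecidableRel G.Adj] (v : V) : Finset V :=
  Finset.univ.filter (G.Adj v)

theorem mem_nb {v w : V} : w ∈ nb G v ↔ G.Adj v w := by simp [nb]

theorem mem_nb' {v w : V} : w ∈ nb G v ↔ G.Adj w v := by rw [mem_nb, G.adj_comm]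

theorem card_cn (v w : V) : Fintype.card (G.commonNeighbors v w) = (nb G v ∩ nb G w).card := by
  rw [← Set.toFinset_card]
  congr 1
  ext x
  simp [mem_nb, SimpleGraph.mem_commonNeighbors]

theorem card_nb (h : G.IsSRGWith n k l m) (v : V) : (nb G v).card = k := by
  rw [← h.regular v, ← SimpleGraph.card_neighborFinset_eq_degree]
  congr 1
  ext x
  simp [mem_nb]

theorem card_cn_adj (h : G.IsSRGWith n k l m) {v w : V} (a : G.Adj v w) :
    (nb G v ∩ nb G w).card = l := by rw [← card_cn, h.of_adj v w a]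

theorem card_cn_nadj (h : G.IsSRGWith n k l m) {v w : V} (hne : v ≠ w) (a : ¬ G.Adj v w) :
    (nb G v ∩ nb G w).card = m := by rw [← card_cn, h.of_not_adj hne a]

theorem not_adj_of_adj (h : G.IsSRGWith n k 0 m) {u v w : V} (a : G.Adj u v) (b : G.Adj u w) :
    ¬ G.Adj v w := by
  intro c
  have := card_cn_adj h c
  rw [Finset.card_eq_zero] at this
  have h2 : u ∈ nb G v ∩ nb G w := Finset.mem_inter.2 ⟨mem_nb'.2 a, mem_nb'.2 b⟩
  rw [this] at h2
  simp at h2

theorem card_inter_nb (v : V) (U : Finset V) :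
    ((U ∩ nb G v).card : ℤ) = ∑ u ∈ U, if G.Adj v u then 1 else 0 := by
  rw [Finset.sum_boole]
  congr 2
  ext x
  simp [mem_nb]

theorem sum_card_inter_nb (W U : Finset V) :
    ∑ v ∈ W, ((U ∩ nb G v).card : ℤ) = ∑ u ∈ U, ((W ∩ nb G u).card : ℤ) := by
  simp only [card_inter_nb]
  rw [Finset.sum_comm]
  simp only [G.adj_comm]

theorem sum_card_inter_nb_mul (W U U' : Finset V) :
    ∑ v ∈ W, ((U ∩ nb G v).card : ℤ) * (U' ∩ nb G v).card =
      ∑ u ∈ U, ∑ u' ∈ U', ((W ∩ (nb G u ∩ nb G u')).card : ℤ) := by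
  simp only [card_inter_nb, Finset.sum_mul_sum]
  rw [Finset.sum_comm]
  refine Finset.sum_congr rfl fun u _ => ?_
  rw [Finset.sum_comm]
  refine Finset.sum_congr rfl fun u' _ => ?_
  simp only [ite_zero_mul_ite_zero, mul_one, Finset.sum_boole]
  congr 2
  ext x
  simp only [Finset.mem_filter, Finset.mem_inter, mem_nb']

theorem sum_nb_univ (h : G.IsSRGWith n k l m) (U : Finset V) :
    ∑ v, ((U ∩ nb G v).card : ℤ) = U.card * k := by
  rw [sum_card_inter_nb]
  simp [card_nb h]

theorem sum_sq_coclique (h : G.IsSRGWith n k l m) {U : Finset V}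
    (hU : ∀ u ∈ U, ∀ u' ∈ U, ¬ G.Adj u u') :
    ∑ v, ((U ∩ nb G v).card : ℤ) ^ 2 = U.card * (k + (U.card - 1) * m) := by
  simp only [sq]
  rw [sum_card_inter_nb_mul, Finset.sum_congr rfl (g := fun _ => (k : ℤ) + (U.card - 1) * m)]
  · simp
  · intro u hu
    rw [← Finset.add_sum_erase _ _ hu, Finset.sum_congr rfl (g := fun _ => (m : ℤ))]
    · simp only [Finset.univ_inter, Finset.inter_self, card_nb h, Finset.sum_const,
        Finset.card_erase_of_mem hu, nsmul_eq_mul]
      rw [Nat.cast_sub (Finset.card_pos.2 ⟨u, hu⟩)]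
      simp
    · intro u' hu'
      rw [Finset.univ_inter, card_cn_nadj h (Finset.ne_of_mem_erase hu').symm
        (hU u hu u' (Finset.mem_of_mem_erase hu'))]

theorem eq_zero_of_sum_le {ι : Type*} [Fintype ι] [DecidableEq ι] {f : ι → ℤ} (hf : ∀ i, 0 ≤ f i)
    {S : Finset ι} (h : ∑ i, f i ≤ ∑ i ∈ S, f i) {i : ι} (hi : i ∉ S) : f i = 0 := by
  have h1 := Finset.sum_add_sum_compl S f
  have h2 := Finset.single_le_sum (f := f) (fun j _ => hf j) (Finset.mem_compl.2 hi)
  have := hf i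
  omega

end Cfsg.Agent.H45
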