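import Cfsg.Agent.H6.TBDefs

/-! Project TB, piece CB: a commuting neighbour and a non-commuting neighbour are adjacent. -/

set_option autoImplicit false
set_option linter.unusedSectionVars false

namespace Cfsg.Agent.H45.TbCb

open Cfsg Subgroup Cfsg.Agent.H6.TB
open Cfsg.Agent.H83 (cj conj_mem_cj)
open scoped Cfsg.Agent.H63 commutatorElement

universe u

variable {G : Type u} [Group G] [Finite G] {Ω : Set (Subgroup G)} (c : C0 Ω)
  {B P Q B' R : Subgroup G}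
include c

theorem exP (hP : P ∈ Ω) : ∃ x ∈ P, x ∉ om P :=
  (c.nel P hP).imp fun x hx => ⟨hx.1, fun k => hx.2 ((c.la.mem_om P hP x).1 k).2⟩

theorem exO (hP : P ∈ Ω) : ∃ i ∈ om P, i ≠ 1 := by
  obtain ⟨⟨i, hi⟩, i1⟩ := ne_bot_iff_exists_ne_one.1
    ((one_lt_card_iff_ne_bot _).1 (lt_of_lt_of_le (by norm_num) (c.four P hP)))
  exact ⟨i, hi, fun k => i1 (Subtype.ext k)⟩

/-- An element of `vv P Q` centralising `P` lies in `P`. -/
theorem mem_of_C (e : Nc Ω P Q) {v : G} (hv : v ∈ vv P Q) (h : v ∈ C[P]) : v ∈ P := by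
  by_contra k
  obtain ⟨x, hx, hx'⟩ := exP c e.l
  exact hx' (c.le.cA e x hx v hv (fun k' => k (om_le _ k')) (h x hx))

theorem one_of_C (e : Nc Ω P Q) {v : G} (hv : v ∈ om Q) (h : v ∈ C[P]) : v = 1 := by
  by_contra k
  exact e.ne (c.la.eq P e.l Q e.r v (mem_of_C c e (mem_sup_right hv) h) (om_le _ hv) k)

theorem comm_om (ca : CA Ω) (e : Cm Ω B P) (e' : Cm Ω B Q) :
    ∀ a ∈ om P, ∀ b ∈ om Q, a * b = b * a := by
  by_cases h : P = Q
  · subst h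
    exact fun a ha b hb => c.comm P e.r a (om_le _ ha) b (om_le _ hb)
  · exact c.le.adc (ca e e' h)

omit c in
theorem Cm_le (e : Cm Ω B P) : P ≤ C[B] := fun y hy x hx => e.comm x hx y hy

theorem main (ca : CA Ω) (e : Cm Ω B P) (f : Nc Ω B B') : Ad Ω P B' := by
  by_contra na
  have t := c.toTB
  have hB' : om B' ≤ N[B] := fun g hg => ((c.le.ax (c.la.nsymm f)).ge hg).2
  obtain ⟨R, x⟩ := c.lx P e.r B' f.r (fun k => e.not_nc (k ▸ f)) na fun g hg a ha b hb =>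
    comm_om c ca e (e.cjN t (hB' hg)) a ha _ (om_cj_le g P (conj_mem_cj hb))
  have hR := x.n1.l
  have hRC : om R ≤ C[B] := fun r hr => by
    obtain ⟨a, ha, b, hb, rfl⟩ := x.sur r hr
    rw [commutatorElement_def, mul_assoc, mul_assoc, ← mul_assoc b]
    exact mul_mem (Cm_le e (om_le _ ha))
      (Cm_le (e.cjN t (hB' hb)) (conj_mem_cj (inv_mem (om_le _ ha))))
  have hne : B ≠ R := fun k => e.not_nc (k ▸ x.n1)
  have hBR : Cm Ω B R := by
    obtain ⟨r, hr, r1⟩ := exO c hR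
    have ad := c.la.symm ((ad_of hR e.l (om_le _ hr) r1
      (centralizer_le_normalizer _ (hRC hr))).resolve_left hne.symm)
    exact ad.cm_or.resolve_right fun k => r1 (one_of_C c k hr (hRC hr))
  have hone : ∀ r ∈ om R, r ∈ C[B'] → r = 1 := fun r hr => one_of_C c (c.la.nsymm x.n2) hr
  have hi : ∀ r : om R, ∃ i : om B, (r : G) * i ∈ C[B'] := fun r => by
    obtain ⟨-, i, h1, h2⟩ := c.lb.tl f r (hRC r.2) ((c.le.ax x.n2).ge r.2).2
    exact ⟨⟨i, h1⟩, h2⟩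
  choose ι hι using hi
  have hinj : Function.Injective ι := fun r r' k => by
    have h1 := mul_mem (hι r) (inv_mem (hι r'))
    rw [k, mul_inv_rev, mul_assoc, mul_inv_cancel_left] at h1
    exact Subtype.ext (mul_inv_eq_one.1 (hone _ (mul_mem r.2 (inv_mem r'.2)) h1))
  have hsur : Function.Surjective ι :=
    (hinj.bijective_of_nat_card_le (t.card e.l hR).1.le).2
  obtain ⟨τ, hτ, τ1, -, -, τ2⟩ := c.lb.tor f ((t.card e.l hR).2.trans x.c4.2).ge
  have hE : ∀ z ∈ C[B], z ∈ C[B'] → τ * z * τ⁻¹ = z := fun z h1 h2 => by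
    have : B ⊔ B' ≤ C1[z] := sup_le (fun y hy => mem_centralizer_singleton_iff.2 (h1 y hy))
      fun y hy => mem_centralizer_singleton_iff.2 (h2 y hy)
    rw [mem_centralizer_singleton_iff.1 (this hτ), mul_inv_cancel_right]
  have hBB : om B ≤ C[B] := fun i hi y hy => c.comm B e.l y hy i (om_le _ hi)
  have hRτ := hBR.cjN t τ1
  -- `R` and `R^τ` commute
  have hRR : Cm Ω R (cj τ R) := by
    obtain ⟨r, hr, r1⟩ := exO c hR
    have h1 := hE _ (mul_mem (hRC hr) (hBB (ι ⟨r, hr⟩).2)) (hι ⟨r, hr⟩)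
    obtain ⟨i, hi, h2⟩ : ∃ i ∈ om B, r * i ∈ C[B'] ∧ τ * (r * i) * τ⁻¹ = r * i :=
      ⟨_, (ι ⟨r, hr⟩).2, hι ⟨r, hr⟩, h1⟩
    have h3 : r⁻¹ * (τ * r * τ⁻¹) = i * (τ * i * τ⁻¹)⁻¹ := by
      calc _ = r⁻¹ * (τ * (r * i) * τ⁻¹) * (τ * i * τ⁻¹)⁻¹ := by group
        _ = _ := by rw [h2.2]; group
    have h4 : r⁻¹ * (τ * r * τ⁻¹) ∈ B :=
      h3 ▸ mul_mem (om_le _ hi) (inv_mem ((mem_normalizer_iff.1 τ1 i).1 (om_le _ hi)))
    have h5 : r⁻¹ * (τ * r * τ⁻¹) ∉ R := fun k => by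
      refine hne (c.la.eq B e.l R hR _ h4 k fun k1 => r1 ?_)
      rw [h3, mul_inv_eq_one, eq_mul_inv_iff_mul_eq] at k1
      have k2 := τ2 i (mem_sup_left hi) k1.symm
      rw [k2, mul_one] at h2
      exact hone r hr h2.1
    have h6 : R ≠ cj τ R := fun k => h5 (mul_mem (inv_mem (om_le _ hr))
      (k.ge (conj_mem_cj (om_le _ hr))))
    refine (ca hBR hRτ h6).cm_or.resolve_right fun k => h5 (mem_of_C c k ?_ (Cm_le hBR.symm h4))
    exact mul_mem (mem_sup_left (inv_mem hr)) (mem_sup_right (om_cj_le τ R (conj_mem_cj hr)))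
  obtain ⟨p, hp, p1⟩ := exO c e.r
  obtain ⟨s, hs, s1, s2, -⟩ := x.s1 p hp p1
  have s3 : p * s ∈ C[B] := mul_mem (Cm_le e (om_le _ hp)) (Cm_le hBR hs)
  obtain ⟨-, i, hi, s4⟩ := c.lb.tl f _ s3 (c.la.com B' f.r s2)
  obtain ⟨r, hr⟩ := hsur ⟨i, hi⟩
  have s5 := mul_mem s4 (inv_mem (hι r))
  rw [hr, mul_inv_rev, mul_assoc, mul_inv_cancel_left, mul_assoc] at s5
  obtain ⟨w, hw, w1, w2⟩ : ∃ w ∈ R, w ∉ om R ∧ p * w ∈ C[B'] :=
    ⟨_, mul_mem hs (inv_mem (om_le _ r.2)), fun k => s1 ((mul_mem_cancel_right (inv_mem r.2)).1 k), s5⟩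
  have w3 := hE _ (mul_mem (Cm_le e (om_le _ hp)) (Cm_le hBR hw)) w2
  have hp' : τ * p * τ⁻¹ ∈ om (cj τ P) := om_cj_le τ P (conj_mem_cj hp)
  have p2 := comm_om c ca e (e.cjN t τ1) p hp _ hp'
  have p3 := ((c.la.mem_om P e.r p).1 hp).2
  have p4 := ((c.la.mem_om _ (e.cjN t τ1).r _).1 hp').2
  have w4 := hRR.comm w hw _ (conj_mem_cj hw)
  have w5 : τ * p * τ⁻¹ * (τ * w * τ⁻¹) = p * w := by rw [← w3]; group
  have hw' : τ * w * τ⁻¹ ∈ cj τ R := conj_mem_cj hw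
  generalize τ * p * τ⁻¹ = p' at *
  generalize τ * w * τ⁻¹ = w' at *
  have w6 : w' = p' * p * w := by
    rw [mul_assoc, ← w5, ← mul_assoc, p4, one_mul]
  have w7 : p' * p * (p' * p) = 1 := by
    rw [mul_assoc, ← mul_assoc p, p2, mul_assoc, p3, mul_one, p4]
  have w8 : w' * w' = w * w := by
    have : w * (p' * p) = p' * p * w := by
      rw [w6, ← mul_assoc] at w4
      exact mul_right_cancel w4
    rw [w6, mul_assoc (p' * p), ← mul_assoc w, this, ← mul_assoc, ← mul_assoc, w7, one_mul]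
  refine w1 ((c.la.mem_om R hR w).2 ⟨hw, by_contra fun k => hRR.ne ?_⟩)
  exact c.la.eq R hR _ hRR.r _ (mul_mem hw hw) (w8 ▸ mul_mem hw' hw') k

omit c in
theorem cb : CBStmt.{u} := fun _ c ca _ _ _ e f => main c ca e f

end Cfsg.Agent.H45.TbCb
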