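import Cfsg.Agent.H45.Transport
import Cfsg.Agent.H45.Cert11

/-! Uniqueness of `S(4,5,11)`. -/

set_option autoImplicit false

namespace Cfsg.Agent.H45

theorem good11 {B : Set (Finset (Fin 11))} (hB : IsSteinerSystem 4 5 B) : par11.Good B := by
  refine ⟨hB, ?_, by simp [par11]⟩
  show ∀ b ∈ B, ∀ c ∈ B, b ≠ c → Nat.testBit 14 (b ∩ c).card = true
  intro b hb c hc hne
  have := inter11 (Fintype.card_fin 11) hB hb hc hne
  rcases this with h | h | h <;> rw [h] <;> decide

theorem exists_std11 {α : Type*} [Fintype α] [DecidableEq α] (hα : Fintype.card α = 11)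
    {B : Set (Finset α)} (hB : IsSteinerSystem 4 5 B) (x : Fin 4 → α)
    (hx : Function.Injective x) :
    ∃ e : α ≃ Fin 11, (∀ i, e (x i) = Fin.castLE (by norm_num) i) ∧ mapB e B = std11 :=
  exists_std hα (by norm_num) x hx fun e _ => unique11 (good11 (steiner_mapB hB e))

theorem exists_std11' {α : Type*} [Fintype α] [DecidableEq α] (hα : Fintype.card α = 11)
    {B : Set (Finset α)} (hB : IsSteinerSystem 4 5 B) :
    ∃ e : α ≃ Fin 11, mapB e B = std11 := by
  obtain ⟨e, -, he⟩ := exists_std11 hα hB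
    (fun i => (Fintype.equivFinOfCardEq hα).symm (Fin.castLE (by norm_num) i))
    ((Equiv.injective _).comp (Fin.castLE_injective (by norm_num)))
  exact ⟨e, he⟩

theorem iso11 {α β : Type*} [Fintype α] [DecidableEq α] [Fintype β] [DecidableEq β]
    (hα : Fintype.card α = 11) (hβ : Fintype.card β = 11) {B : Set (Finset α)}
    {B' : Set (Finset β)} (hB : IsSteinerSystem 4 5 B) (hB' : IsSteinerSystem 4 5 B') :
    SetSystemIso B B' := by
  obtain ⟨e, he⟩ := exists_std11' hα hB
  obtain ⟨e', he'⟩ := exists_std11' hβ hB'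
  exact setSystemIso_of_mapB e e' (he.trans he'.symm)

end Cfsg.Agent.H45
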