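import Cfsg.Agent.H45.Aut
import Cfsg.Agent.H45.U12
import Cfsg.Agent.H45.U11
import Cfsg.Agent.S0357

/-! The automorphism groups of the small Witt designs are sharply transitive. -/

set_option autoImplicit false
set_option linter.unusedSectionVars false

namespace Cfsg.Agent.H45

open Finset MulAction

variable {α : Type*} [Fintype α] [DecidableEq α]

theorem trans12 (hα : Fintype.card α = 12) {B : Set (Finset α)} (hB : IsSteinerSystem 5 6 B) :
    IsMultiplyPretransitive (setSystemAut B) α 5 :=
  multTrans_of_marked (exists_std12 hα hB)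

theorem trans11 (hα : Fintype.card α = 11) {B : Set (Finset α)} (hB : IsSteinerSystem 4 5 B) :
    IsMultiplyPretransitive (setSystemAut B) α 4 :=
  multTrans_of_marked (exists_std11 hα hB)

theorem rigid12 (hα : Fintype.card α = 12) {B : Set (Finset α)} (hB : IsSteinerSystem 5 6 B)
    {g : Equiv.Perm α} (hg : g ∈ setSystemAut B) (x : Fin 5 → α) (hx : Function.Injective x)
    (hgx : ∀ i, g (x i) = x i) : g = 1 := by
  refine rigid_of_blocks hB (by omega) ?_ hg x hx hgx
  intro b hb P hP hP2
  have hc := S0357.result hα hB hb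
  have h := ncard_inter_eq (block12 hα hB hc) hP
  rw [hB.1 _ hc] at h
  have : ({c | c ∈ B ∧ bᶜ ∩ c = P} : Set (Finset α)).ncard ≠ 0 := by
    rcases hP2 with h2 | h2 <;> rw [h2] at h
    · rw [show tri lam12 2 (6 - 2) = 3 by decide] at h; omega
    · rw [show tri lam12 3 (6 - 3) = 2 by decide] at h; omega
  exact Set.nonempty_of_ncard_ne_zero this

/-- The `λ` sequence of subsets of the complement of a block of `S(4,5,11)`. -/
def lam11' : ℕ → ℤ
  | 0 => 66 | 1 => 30 | 2 => 12 | 3 => 4 | 4 => 1 | _ => 0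

theorem compl11 (hα : Fintype.card α = 11) {B : Set (Finset α)} (hB : IsSteinerSystem 4 5 B)
    {b : Finset α} (hb : b ∈ B) : ∀ s ⊆ bᶜ, (cnt B s ∅ : ℤ) = lam11' s.card := by
  intro s hs
  by_cases h : s.card ≤ 4
  · rw [small11 hα hB h]
    generalize s.card = k at h
    interval_cases k <;> rfl
  · obtain ⟨k, hk⟩ : ∃ k, s.card = k + 5 := ⟨s.card - 5, by omega⟩
    rw [hk, cnt_eq_zero]
    · rfl
    intro c hc hsc
    have h1 : s = c := Finset.eq_of_subset_of_card_le hsc (by rw [hB.1 c hc]; omega)
    subst h1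
    have h2 : b ∩ s = ∅ := by
      ext y
      simp only [Finset.mem_inter, Finset.notMem_empty, iff_false, not_and]
      exact fun h1 h2 => Finset.mem_compl.1 (hs h2) h1
    have h3 : b ≠ s := by
      rintro rfl
      rw [Finset.inter_self] at h2
      simp [h2] at hk
    have := inter11 hα hB hb hc h3
    simp [h2] at this

theorem rigid11 (hα : Fintype.card α = 11) {B : Set (Finset α)} (hB : IsSteinerSystem 4 5 B)
    {g : Equiv.Perm α} (hg : g ∈ setSystemAut B) (x : Fin 4 → α) (hx : Function.Injective x)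
    (hgx : ∀ i, g (x i) = x i) : g = 1 := by
  refine rigid_of_blocks hB (by omega) ?_ hg x hx hgx
  intro b hb P hP hP2
  have h := ncard_inter_eq (compl11 hα hB hb) hP
  rw [Finset.card_compl, hα, hB.1 _ hb] at h
  have : ({c | c ∈ B ∧ bᶜ ∩ c = P} : Set (Finset α)).ncard ≠ 0 := by
    rcases hP2 with h2 | h2 <;> rw [h2] at h
    · rw [show tri lam11' 2 (11 - 5 - 2) = 2 by decide] at h; omega
    · rw [show tri lam11' 3 (11 - 5 - 3) = 1 by decide] at h; omega
  exact Set.nonempty_of_ncard_ne_zero this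

theorem sharp12 (hα : Fintype.card α = 12) {B : Set (Finset α)} (hB : IsSteinerSystem 5 6 B)
    (x : Fin 5 ↪ α) : stabilizer (setSystemAut B) x = ⊥ :=
  stabilizer_eq_bot_of x fun _ hg h => rigid12 hα hB hg x x.injective h

theorem sharp11 (hα : Fintype.card α = 11) {B : Set (Finset α)} (hB : IsSteinerSystem 4 5 B)
    (x : Fin 4 ↪ α) : stabilizer (setSystemAut B) x = ⊥ :=
  stabilizer_eq_bot_of x fun _ hg h => rigid11 hα hB hg x x.injective h

end Cfsg.Agent.H45
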