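import Cfsg.Agent.H45.Monomial
import Cfsg.Agent.H45.Witt12

/-! The ternary Golay code. -/

set_option autoImplicit false
set_option linter.unusedSectionVars false
set_option maxRecDepth 1000000

namespace Cfsg.Agent.H45

open Finset
open H42 (allB anyB allL anyL force iteB tb pc fld allB_iff anyB_iff allL_iff anyL_iff
  force_eq iteB_eq tb_eq beq_iff ble_iff)

theorem steiner_of_list {n t k : ℕ} (hn : n ≤ 24) (L : List ℕ)
    (h1 : allL (fun l => iteB (Nat.ble (Nat.succ l) (Nat.pow 2 n)) (Nat.beq (pc l) k) false) L = true)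
    (h2 : allL (fun a => allL (fun b => iteB (Nat.ble (Nat.succ (pc (Nat.land a b))) t) true
      (Nat.beq a b)) L) L = true)
    (h3 : allB (fun s => iteB (Nat.beq (pc s) t) (anyL (fun l => Nat.beq (Nat.land s l) s) L) true)
      (Nat.pow 2 n) = true) : IsSteinerSystem t k (fs n '' {w | w ∈ L}) := by
  have h4 : ∀ l ∈ L, l < 2 ^ n ∧ pc l = k := fun l hl => by
    have := allL_iff.1 h1 l hl
    rwa [iteB_and, ble_iff, beq_iff] at this
  constructor
  · rintro _ ⟨l, hl, rfl⟩
    rw [card_fs hn (h4 l hl).1, (h4 l hl).2]
  · intro s hs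
    obtain ⟨w, hw, rfl⟩ := exists_fs s
    have h5 := allB_iff.1 h3 w hw
    rw [← card_fs hn hw, hs, Nat.beq_refl, H42.iteB_true, anyL_iff] at h5
    obtain ⟨l, hl, h6⟩ := h5
    rw [beq_iff] at h6
    refine ⟨fs n l, ⟨⟨l, hl, rfl⟩, fs_subset_of_land h6⟩, ?_⟩
    rintro _ ⟨⟨l', hl', rfl⟩, h7⟩
    have h8 := allL_iff.1 (allL_iff.1 h2 l' hl') l hl
    rw [iteB_or, ble_iff, beq_iff, ← card_fs hn (land_lt' _ (h4 _ hl').1), fs_land] at h8
    rcases h8 with h8 | h8
    · have := Finset.card_le_card (Finset.subset_inter h7 (fs_subset_of_land h6))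
      omega
    · rw [h8]

/-- Decidable form of the defining conditions of the ternary code. -/
def TW (x : ArrayPt → ZMod 3) : Prop :=
  ∃ s : ZMod 3, (∀ i : Fin 4, ∑ r : ZMod 3, x (i, r) = -s) ∧
    ∀ a b : ZMod 3, ∑ i : Fin 4, x (i, a * ![0, 1, 1, 1] i + b * ![1, 0, 1, 2] i) = s

instance instDecidablePredTW : DecidablePred TW := fun x => by unfold TW; infer_instance

theorem mem_tern_iff {x : ArrayPt → ZMod 3} : x ∈ ternaryGolayCode ↔ TW x := by
  refine exists_congr fun s => and_congr_right fun _ => ⟨fun h a b => ?_, fun h t ht => ?_⟩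
  · exact h _ (Submodule.mem_span_pair.2 ⟨a, b, rfl⟩)
  · obtain ⟨a, b, rfl⟩ := Submodule.mem_span_pair.1 ht
    exact h a b

/-- The number of a position. -/
def ixA (p : ArrayPt) : ℕ := 3 * p.1.val + p.2.val

/-- The position with a given number. -/
def ptA (n : ℕ) : ArrayPt := (Fin.ofNat 4 (n / 3), (n : ZMod 3))

/-- The numbering of the positions. -/
def eA : ArrayPt ≃ Fin 12 :=
  ⟨fun p => Fin.ofNat 12 (ixA p), fun i => ptA i, by decide, by decide⟩

/-- The generator matrix. -/
def tG (k : ℕ) (p : ArrayPt) : ℕ := fld 2 14749199671377121909350931365093898204808193 (12 * k + ixA p)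

/-- The code word number `n`. -/
def tW (n : ℕ) (p : ArrayPt) : ZMod 3 :=
  ((n * tG 0 p + n / 3 * tG 1 p + n / 9 * tG 2 p + n / 27 * tG 3 p + n / 81 * tG 4 p +
    n / 243 * tG 5 p : ℕ) : ZMod 3)

/-- The generators of the code. -/
def tg (k : ℕ) (p : ArrayPt) : ZMod 3 := (tG k p : ZMod 3)

theorem tW_eq (n : ℕ) : tW n = (n : ZMod 3) • tg 0 + ((n / 3 : ℕ) : ZMod 3) • tg 1 +
    ((n / 9 : ℕ) : ZMod 3) • tg 2 + ((n / 27 : ℕ) : ZMod 3) • tg 3 +
    ((n / 81 : ℕ) : ZMod 3) • tg 4 + ((n / 243 : ℕ) : ZMod 3) • tg 5 := by
  funext p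
  simp only [tW, tg, Nat.cast_add, Nat.cast_mul, Pi.add_apply, Pi.smul_apply, smul_eq_mul]

theorem tW_mem_of {D : Submodule (ZMod 3) (ArrayPt → ZMod 3)} (h : ∀ k < 6, tg k ∈ D) (n : ℕ) :
    tW n ∈ D := by
  rw [tW_eq]
  refine D.add_mem (D.add_mem (D.add_mem (D.add_mem (D.add_mem ?_ ?_) ?_) ?_) ?_) ?_ <;>
    exact D.smul_mem _ (h _ (by norm_num))

theorem tW_mem (n : ℕ) : tW n ∈ ternaryGolayCode :=
  tW_mem_of (by simp only [mem_tern_iff]; decide +kernel) n

theorem tern_eq_zero {d : ArrayPt → ZMod 3} (hd : d ∈ ternaryGolayCode) (h0 : d (ptA 0) = 0)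
    (h1 : d (ptA 1) = 0) (h2 : d (ptA 2) = 0) (h3 : d (ptA 3) = 0) (h4 : d (ptA 4) = 0)
    (h6 : d (ptA 6) = 0) : d = 0 := by
  have key : ∀ a b c d e f : ZMod 3, TW (fun p => ![0, 0, 0, 0, 0, a, 0, b, c, d, e, f] (eA p)) →
      ∀ p, ![0, 0, 0, 0, 0, a, 0, b, c, d, e, f] (eA p) = 0 := by decide +kernel
  have e : d = fun p => ![0, 0, 0, 0, 0, d (ptA 5), 0, d (ptA 7), d (ptA 8), d (ptA 9),
      d (ptA 10), d (ptA 11)] (eA p) := by
    funext ⟨i, r⟩
    fin_cases i <;> fin_cases r <;>
      first | rfl | exact h0 | exact h1 | exact h2 | exact h3 | exact h4 | exact h6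
  rw [mem_tern_iff, e] at hd
  rw [e]
  exact funext (key _ _ _ _ _ _ hd)

/-- The number of a code word. -/
def tN (x : ArrayPt → ZMod 3) : ℕ :=
  (x (ptA 0)).val + 3 * (x (ptA 1)).val + 9 * (x (ptA 2)).val + 27 * (x (ptA 3)).val +
    81 * (x (ptA 4)).val + 243 * (x (ptA 6)).val

theorem tN_tW : ∀ n < 729, tN (tW n) = n := by
  have : allB (fun n => Nat.beq (tN (tW n)) n) 729 = true := by decide +kernel
  intro n hn
  exact beq_iff.1 (allB_iff.1 this n hn)

theorem exists_tW {x : ArrayPt → ZMod 3} (hx : x ∈ ternaryGolayCode) : ∃ n < 729, tW n = x := by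
  have key : ∀ a b c d e f : ZMod 3,
      let n := a.val + 3 * b.val + 9 * c.val + 27 * d.val + 81 * e.val + 243 * f.val
      n < 729 ∧ tW n (ptA 0) = a ∧ tW n (ptA 1) = b ∧ tW n (ptA 2) = c ∧ tW n (ptA 3) = d ∧
        tW n (ptA 4) = e ∧ tW n (ptA 6) = f := by decide +kernel
  obtain ⟨h, h0, h1, h2, h3, h4, h6⟩ := key (x (ptA 0)) (x (ptA 1)) (x (ptA 2)) (x (ptA 3))
    (x (ptA 4)) (x (ptA 6))
  exact ⟨_, h, sub_eq_zero.1 (tern_eq_zero (Submodule.sub_mem _ (tW_mem _) hx) (sub_eq_zero.2 h0)
    (sub_eq_zero.2 h1) (sub_eq_zero.2 h2) (sub_eq_zero.2 h3) (sub_eq_zero.2 h4) (sub_eq_zero.2 h6))⟩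

theorem ncard_tern (P : (ArrayPt → ZMod 3) → Prop) [DecidablePred P] :
    {x | x ∈ ternaryGolayCode ∧ P x}.ncard = H42.cnt (fun n => decide (P (tW n))) 729 := by
  apply H42.ncard_eq_cnt _ tW
  · intro i hi j hj _ _ e
    rw [← tN_tW i hi, e, tN_tW j hj]
  · intro x
    constructor
    · rintro ⟨h1, h2⟩
      obtain ⟨n, hn, rfl⟩ := exists_tW h1
      exact ⟨n, hn, decide_eq_true h2, rfl⟩
    · rintro ⟨n, -, h, rfl⟩
      exact ⟨tW_mem n, of_decide_eq_true h⟩

theorem forall_tern (P : (ArrayPt → ZMod 3) → Prop) [DecidablePred P]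
    (h : allB (fun n => decide (P (tW n))) 729 = true) : ∀ x ∈ ternaryGolayCode, P x := by
  intro x hx
  obtain ⟨n, hn, rfl⟩ := exists_tW hx
  exact of_decide_eq_true (allB_iff.1 h n hn)

theorem tern_orth {x y : ArrayPt → ZMod 3} (hx : x ∈ ternaryGolayCode)
    (hy : y ∈ ternaryGolayCode) : ∑ p, x p * y p = 0 := by
  have h := forall_tern (fun x => ∑ p, x p * x p = 0) (by decide +kernel)
  have h1 := h _ (Submodule.add_mem _ hx hy)
  have h2 := h _ (Submodule.sub_mem _ hx hy)
  have h3 : ∀ a b : ZMod 3, a * b = (a + b) * (a + b) - (a - b) * (a - b) := by decide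
  rw [Finset.sum_congr rfl (fun p _ => h3 (x p) (y p)), Finset.sum_sub_distrib]
  exact sub_eq_zero.2 (h1.trans h2.symm)

theorem tern_diag (c : ArrayPt → (ZMod 3)ˣ)
    (h : ∀ x ∈ ternaryGolayCode, monomialMap 1 c x ∈ ternaryGolayCode) (p q : ArrayPt) :
    c p = c q := by
  suffices ∀ q, c (ptA 0) = c q from (this p).symm.trans (this q)
  intro q
  by_cases hq : q = ptA 0
  · rw [hq]
  have key : ∀ q, q ≠ ptA 0 → ∃ t ∈ [(4, 97), (10, 208), (28, 229), (82, 229), (1, 229), (244, 565), (4, 154), (1, 154), (1, 112), (1, 187), (1, 43)], ∀ p,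
      tW t.1 p * tW t.2 p = (if p = ptA 0 then 1 else 0) - if p = q then 1 else 0 := by
    decide +kernel
  obtain ⟨t, -, ht⟩ := key q hq
  have h1 := tern_orth (h _ (tW_mem t.1)) (tW_mem t.2)
  simp only [monomialMap, Equiv.Perm.one_def, Equiv.refl_symm, Equiv.refl_apply, mul_assoc, ht, mul_sub,
    Finset.sum_sub_distrib, mul_ite, mul_one, mul_zero, Finset.sum_ite_eq', Finset.mem_univ,
    if_true] at h1
  exact Units.ext (sub_eq_zero.1 h1)

/-- The hexads of the ternary code. -/
def tHex : Set (Finset ArrayPt) :=
  {h | ∃ x ∈ ternaryGolayCode, ternarySupport x = h ∧ h.card = 6}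

/-- The hexads with a word supported on each. -/
def tHexL : List (ℕ × ℕ) := [(63, 134), (222, 393), (237, 289), (243, 410), (347, 439), (366, 318), (373, 335), (413, 154), (427, 32), (438, 102), (455, 269), (504, 459), (591, 284), (630, 429), (633, 379), (667, 112), (679, 17), (700, 117), (725, 415), (746, 276), (791, 97), (813, 37), (826, 141), (860, 369), (867, 247), (910, 51), (945, 83), (969, 299), (978, 327), (996, 252), (1117, 479), (1127, 259), (1146, 354), (1175, 95), (1198, 39), (1209, 137), (1227, 301), (1268, 342), (1295, 49), (1331, 85), (1340, 144), (1366, 417), (1385, 272), (1434, 114), (1445, 10), (1484, 279), (1489, 325), (1506, 249), (1566, 156), (1579, 34), (1589, 100), (1619, 332), (1644, 306), (1677, 47), (1714, 87), (1734, 264), (1752, 432), (1761, 245), (1817, 110), (1830, 12), (1861, 262), (1866, 303), (1904, 405), (1923, 5), (1940, 90), (1960, 27), (2135, 346), (2155, 305), (2172, 441), (2191, 43), (2229, 91), (2234, 138), (2265, 353), (2278, 255), (2334, 120), (2343, 14), (2361, 109), (2381, 307), (2418, 330), (2451,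 89), (2476, 45), (2506, 273), (2516, 423), (2529, 244), (2589, 146), (2606, 48), (2611, 86), (2650, 462), (2661, 263), (2710, 105), (2729, 29), (2755, 250), (2764, 315), (2800, 324), (2827, 35), (2868, 99), (2886, 258), (2897, 407), (2920, 270), (2949, 11), (2968, 135), (2978, 3), (3099, 142), (3117, 38), (3126, 96), (3150, 294), (3185, 406), (3228, 126), (3235, 4), (3269, 254), (3282, 411), (3304, 297), (3349, 101), (3370, 33), (3395, 248), (3416, 378), (3428, 261), (3462, 15), (3465, 28), (3504, 81), (3591, 13), (3640, 108), (3657, 271), (3668, 333), (3682, 246), (3722, 30), (3729, 82), (3748, 9), (3852, 36), (3858, 84), (3873, 1), (4032, 243)]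

theorem mapB_tHex : mapB eA tHex = fs 12 '' {w | w ∈ tHexL.map Prod.fst} := by
  apply Set.Subset.antisymm
  · rintro _ ⟨_, ⟨x, hx, rfl, h6⟩, rfl⟩
    have := forall_tern (fun x => (ternarySupport x).card = 6 →
      force (∑ p ∈ ternarySupport x, 2 ^ ixA p) (fun m => decide (m ∈ tHexL.map Prod.fst ∧
        ∀ p, x p ≠ 0 ↔ m.testBit (eA p) = true)) = true) (by decide +kernel) x hx h6
    rw [force_eq, decide_eq_true_iff] at this
    refine ⟨_, this.1, ?_⟩
    ext i
    obtain ⟨p, rfl⟩ := eA.surjective i
    rw [mem_fs, ← this.2, Function.Injective.mem_finset_image eA.injective]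
    simp [ternarySupport]
  · rintro _ ⟨w, hw, rfl⟩
    obtain ⟨t, ht, rfl⟩ := List.mem_map.1 hw
    have key : ∀ t ∈ tHexL, (ternarySupport (tW t.2)).card = 6 ∧
      ∀ p, tW t.2 p ≠ 0 ↔ t.1.testBit (eA p) = true := by decide +kernel
    refine ⟨_, ⟨_, tW_mem t.2, rfl, (key t ht).1⟩, ?_⟩
    ext i
    obtain ⟨p, rfl⟩ := eA.surjective i
    rw [mem_fs, ← (key t ht).2, Function.Injective.mem_finset_image eA.injective]
    simp [ternarySupport]

theorem tHex_steiner : IsSteinerSystem 5 6 tHex := by
  rw [← mapB_symm_mapB eA tHex, mapB_tHex]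
  exact steiner_mapB (steiner_of_list (by norm_num) _ (by decide +kernel) (by decide +kernel)
    (by decide +kernel)) _

theorem card_arrayPt : Fintype.card ArrayPt = 12 := rfl

theorem tHex_ncard : tHex.ncard = 132 := by
  have h := small12 card_arrayPt tHex_steiner (s := ∅) (by simp)
  have h2 : blk tHex ∅ ∅ = tHex := by ext c; simp [mem_blk]
  rw [cnt, h2] at h
  have h3 : (tHex.ncard : ℤ) = 132 := h
  exact_mod_cast h3

theorem monoK_tern_le : monoK ternaryGolayCode ≤ setSystemAut tHex := by
  rintro σ ⟨c, hc⟩
  rw [mem_aut_iff]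
  rintro _ ⟨x, hx, rfl, h6⟩
  refine ⟨_, hc x hx, ?_, by rw [card_image_equiv, h6]⟩
  ext p
  obtain ⟨p, rfl⟩ := σ.surjective p
  rw [Function.Injective.mem_finset_image σ.injective]
  simp [ternarySupport, monomialMap]

/-- A permutation of the positions from packed tables. -/
def tabA (t : ℕ) (p : ArrayPt) : ArrayPt := ptA (fld 4 t (ixA p))

def permA : Equiv.Perm ArrayPt :=
  ⟨tabA 128325469415571, tabA 165007145436021, by decide +kernel, by decide +kernel⟩

def permB : Equiv.Perm ArrayPt :=
  ⟨tabA 57735724931961, tabA 42919967504436, by decide +kernel, by decide +kernel⟩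

theorem mem_monoK_tern (σ : Equiv.Perm ArrayPt) (s : ℕ)
    (h : ∀ k < 6, TW (monomialMap σ (fun p => cond (s.testBit (ixA p)) (-1) 1) (tg k))) :
    σ ∈ monoK ternaryGolayCode := by
  refine ⟨fun p => cond (s.testBit (ixA p)) (-1) 1, fun x hx => ?_⟩
  obtain ⟨n, -, rfl⟩ := exists_tW hx
  refine monomialMap_mem_span (S := {x | ∃ k < 6, tg k = x}) ?_ _
    (tW_mem_of (fun k hk => Submodule.subset_span (Exists.intro k ⟨hk, rfl⟩)) n)
  rintro _ ⟨k, hk, rfl⟩
  exact mem_tern_iff.2 (h k hk)

theorem monoK_tern : monoK ternaryGolayCode = setSystemAut tHex := by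
  refine le_antisymm monoK_tern_le (le_of_chain _ _ monoK_tern_le 5 ptA (by decide) ?_ ?_)
  · intro g hg h
    rw [rigid12 card_arrayPt tHex_steiner hg (fun i => ptA i) (by decide) (fun i => h i i.2)]
    exact one_mem _
  · have key : ∀ i < 5, ∀ y, (∀ j < i, y ≠ ptA j) → ∃ w ∈ [[], [false, true], [true, true], [true], [true, true, true, false, false], [false, true, false, false], [true, false, false], [true, true, false], [false, false], [false], [true, true, false, false], [true, false], [true, true, true, true, true, false, false], [true, false, true, false, false], [true, true, true, false, true, true, false], [false, true, false, true, true, false], [true, true, false, false, true, true, false], [false, false, true, true, true, false, false, false], [true, true, false, false, false, false, true], [false, true, true, true, false, false], [false, true, false, false, false, true], [false, false, false, true, true, false], [true, false, true, true, true, true], [false, false, false, false, true, true, false, true, true], [true, true, true,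 true, false, false, true, true, true, false, true, false], [false, true, false, true, true, true, false, true], [false, false, false, false, false, true], [true, false, false, false, true, true, true, false, true, false], [false, false, false, false, true, false, false, true], [true, false, true, false, false, true, false, true, false, false], [false, true, true, true, true, false, true, true, true], [true, false, true, false, true, false, false, false, true, true], [true, true, false, false, false, true, false, true, true, true, true, false, false, true, false], [true, false, true, true, false, true, false, true, true, false, false, true, true], [false, true, false, true, true, false, false, false, true, true, false, false], [true, false, false, true, false, true, false, false, true, true, true, true], [false, false, false, false, true, false, true, false, false, true], [false, false, false, false, true, false, false, true, false, false, false, false, false, true], [false, true, false, true, false, false, false, false, false, false, false,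 true, true, false], [true, true, true, true, false, true, true, true, true, false, false], [false, false, false, false, false, true, false, true, false, true, true, true, false, true], [false, false, false, true, false, true, true], [true, true, false, true, true, false, true, false, false, true, true, true, true, true, false], [true, true, true, true, true, true, false, true, true, true, true, false, false, false, true, true, true, true], [true, true, false, true, true, false, true, false, false, true, false], [true, false, false, false, false, false, false, true, false, true, true, true, false, false, false]],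
        (∀ j < i, evW permA permB w (ptA j) = ptA j) ∧ evW permA permB w (ptA i) = y := by
      decide +kernel
    intro i hi y hy
    obtain ⟨w, -, h⟩ := key i hi y hy
    exact ⟨_, evW_mem (mem_monoK_tern permA 1112 (by decide +kernel))
      (mem_monoK_tern permB 1582 (by decide +kernel)) w, h⟩

end Cfsg.Agent.H45
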